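import Cfsg.Agent.Lib.SchurMult.UnivCover
import Cfsg.Agent.Lib.SchurMult.SLTwo

/-!
Central extensions: the relation "all lifts commute", and sections over groups of small abelianization.
-/

set_option autoImplicit false

namespace Cfsg.Agent.Lib.PSpMult

open scoped commutatorElement

variable {G E : Type*} [Group G] [Group E] {σ : E →* G} (hs : Function.Surjective σ)
  (hc : σ.ker ≤ Subgroup.center E)

include hc

theorem cker {z : E} (hz : σ z = 1) (y : E) : z * y = y * z :=
  (Subgroup.mem_center_iff.1 (hc (MonoidHom.mem_ker.2 hz)) y).symm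

/-- two lifts differ by a central element -/
theorem ediv {a a' : E} (h : σ a = σ a') : ∃ z, σ z = 1 ∧ a = a' * z :=
  ⟨a'⁻¹ * a, by rw [map_mul, map_inv, h, inv_mul_cancel], by group⟩

theorem ccongr {a b a' b' : E} (ha : σ a = σ a') (hb : σ b = σ b') : ⁅a, b⁆ = ⁅a', b'⁆ := by
  obtain ⟨z, hz, rfl⟩ := ediv hc ha
  obtain ⟨w, hw, rfl⟩ := ediv hc hb
  rw [commutatorElement_def, commutatorElement_def]
  calc a' * z * (b' * w) * (a' * z)⁻¹ * (b' * w)⁻¹
      = a' * (z * b') * (w * z⁻¹) * a'⁻¹ * w⁻¹ * b'⁻¹ := by group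
    _ = a' * b' * (z * w * z⁻¹ * (a'⁻¹ * w⁻¹)) * b'⁻¹ := by rw [cker hc hz b']; group
    _ = a' * b' * (w * (a'⁻¹ * w⁻¹)) * b'⁻¹ := by rw [cker hc hz w]; group
    _ = _ := by rw [cker hc hw (a'⁻¹ * w⁻¹)]; group

/-- conjugation by two lifts agrees -/
theorem conj_congr {a a' : E} (ha : σ a = σ a') (b : E) : a * b * a⁻¹ = a' * b * a'⁻¹ := by
  obtain ⟨z, hz, rfl⟩ := ediv hc ha
  calc a' * z * b * (a' * z)⁻¹ = a' * (z * b) * z⁻¹ * a'⁻¹ := by group
    _ = _ := by rw [cker hc hz b]; group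

omit hc

/-- all lifts commute -/
def CL (σ : E →* G) (x y : G) : Prop := ∀ a b, σ a = x → σ b = y → Commute a b

theorem CL.symm {x y : G} (h : CL σ x y) : CL σ y x := fun a b ha hb => (h b a hb ha).symm

include hc

theorem CL.self (x : G) : CL σ x x := fun a b ha hb => by
  obtain ⟨z, hz, rfl⟩ := ediv hc (hb.trans ha.symm)
  exact (Commute.refl a).mul_right (cker hc hz a).symm

theorem CL.one (x : G) : CL σ x 1 := fun a b _ hb => (cker hc hb a).symm

include hs

theorem CL.mul {x y y' : G} (h : CL σ x y) (h' : CL σ x y') : CL σ x (y * y') := fun a b ha hb => by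
  obtain ⟨c, hc'⟩ := hs y
  obtain ⟨c', hc''⟩ := hs y'
  obtain ⟨z, hz, rfl⟩ := ediv hc (a := b) (a' := c * c') (by rw [map_mul, hb, hc', hc''])
  exact ((h a c ha hc').mul_right (h' a c' ha hc'')).mul_right (cker hc hz a).symm

theorem CL.inv {x y : G} (h : CL σ x y) : CL σ x y⁻¹ := fun a b ha hb => by
  have := h a b⁻¹ ha (by rw [map_inv, hb, inv_inv])
  simpa using this.inv_right

/-- the elements whose lifts commute with those of `x` -/
def cl (x : G) : Subgroup G where
  carrier := {y | CL σ x y}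
  one_mem' := CL.one hc x
  mul_mem' := CL.mul hs hc
  inv_mem' := CL.inv hs hc

theorem CL.conj {x y : G} (g : G) (h : CL σ x y) : CL σ (g * x * g⁻¹) (g * y * g⁻¹) := fun a b ha hb => by
  obtain ⟨c, hc'⟩ := hs g
  have h1 := h (c⁻¹ * a * c) (c⁻¹ * b * c) (by rw [map_mul, map_mul, map_inv, hc', ha]; group)
    (by rw [map_mul, map_mul, map_inv, hc', hb]; group)
  have := h1.map (MulAut.conj c).toMonoidHom
  simpa [mul_assoc] using this

/-- an element commuting with `x` normalizes -/
theorem CL.conj_right {x y g : G} (hg : Commute g x) (h : CL σ x y) : CL σ x (g * y * g⁻¹) := by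
  have := CL.conj hs hc g h
  rwa [hg.eq, mul_inv_cancel_right] at this

/-- commutators of elements commuting with `x` -/
theorem CL.comm {x u v : G} (hu : Commute x u) (hv : Commute x v) : CL σ x ⁅u, v⁆ := fun a b ha hb => by
  obtain ⟨c, hc'⟩ := hs u
  obtain ⟨d, hd⟩ := hs v
  obtain ⟨z, hz, rfl⟩ := ediv hc (a := b) (a' := ⁅c, d⁆) (by rw [map_commutatorElement, hc', hd, hb])
  refine Commute.mul_right ?_ (cker hc hz a).symm
  have h1 : a * ⁅c, d⁆ * a⁻¹ = ⁅c, d⁆ := by
    rw [show a * ⁅c, d⁆ * a⁻¹ = ⁅a * c * a⁻¹, a * d * a⁻¹⁆ by simp only [commutatorElement_def]; group]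
    exact ccongr hc (by rw [map_mul, map_mul, map_inv, ha, hc', hu.eq, mul_inv_cancel_right])
      (by rw [map_mul, map_mul, map_inv, ha, hd, hv.eq, mul_inv_cancel_right])
  exact mul_inv_eq_iff_eq_mul.1 h1

omit hs

/-- two lifts of a homomorphism from a perfect group agree -/
theorem hom_unique {H : Type*} [Group H] (hH : commutator H = ⊤) {f g : H →* E}
    (h : ∀ x, σ (f x) = σ (g x)) : f = g := by
  have hle : commutator H ≤ f.eqLocus g := by
    rw [commutator_eq_closure, Subgroup.closure_le]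
    rintro _ ⟨a, b, rfl⟩
    show f ⁅a, b⁆ = g ⁅a, b⁆
    rw [map_commutatorElement, map_commutatorElement]
    exact ccongr hc (h a) (h b)
  rw [hH] at hle
  exact MonoidHom.ext fun x => hle (Subgroup.mem_top x)

omit hc

/-- a subgroup meeting the kernel trivially and covering gives a section -/
theorem section_of_complement (H : Subgroup E) (h1 : H ⊓ σ.ker = ⊥) (h2 : H.map σ = ⊤) :
    ∃ τ : G →* E, σ.comp τ = MonoidHom.id G ∧ ∀ e ∈ H, τ (σ e) = e := by
  let f := σ.comp H.subtype
  have hi : Function.Injective f := by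
    rw [← MonoidHom.ker_eq_bot_iff, eq_bot_iff]
    intro x hx
    have : (x : E) ∈ H ⊓ σ.ker := ⟨x.2, hx⟩
    rw [h1] at this
    exact Subtype.ext (Subgroup.mem_bot.1 this)
  have hsu : Function.Surjective f := fun g => by
    obtain ⟨e, he, rfl⟩ : g ∈ H.map σ := h2 ▸ Subgroup.mem_top g
    exact ⟨⟨e, he⟩, rfl⟩
  let e := MulEquiv.ofBijective f ⟨hi, hsu⟩
  refine ⟨H.subtype.comp e.symm.toMonoidHom, MonoidHom.ext fun g => e.apply_symm_apply g, fun x hx => ?_⟩
  show (e.symm (σ x) : E) = x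
  rw [show σ x = e ⟨x, hx⟩ from rfl, e.symm_apply_apply]

section Mult

universe u v

variable {Q : Type u} [Group Q] [Finite Q] {P : Type v} [Group P] [Finite P]

open Cfsg.Agent.Lib.SchurMult in
/-- with trivial multiplier a central kernel avoids the derived group -/
theorem inf_commutator_eq_bot (h : Cfsg.HasCyclicSchurMultiplier Q 1) (τ : P →* Q)
    (hs : Function.Surjective τ) (hc : τ.ker ≤ Subgroup.center P) : τ.ker ⊓ commutator P = ⊥ := by
  obtain ⟨η, hη⟩ := SchurMult.exists_lift (stdPres Q) (MonoidHom.id Q) τ hs hc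
  rw [MonoidHom.id_comp] at hη
  have happ : ∀ u, τ (η u) = proj (stdPres Q) u := fun u => DFunLike.congr_fun hη u
  have hle : commutator P ≤ (commutator (UGrp (stdPres Q))).map η := by
    rw [commutator_eq_closure, Subgroup.closure_le]
    rintro _ ⟨a, b, rfl⟩
    obtain ⟨u, hu⟩ := proj_surjective (stdPres Q) (stdPres_surjective Q) (τ a)
    obtain ⟨v, hv⟩ := proj_surjective (stdPres Q) (stdPres_surjective Q) (τ b)
    rw [ccongr hc (a' := η u) (b' := η v) (by rw [happ, hu]) (by rw [happ, hv]), ← map_commutatorElement]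
    exact Subgroup.mem_map_of_mem η (Subgroup.commutator_mem_commutator (Subgroup.mem_top _) (Subgroup.mem_top _))
  rw [eq_bot_iff]
  rintro z ⟨hz, hz'⟩
  obtain ⟨u, hu, rfl⟩ := hle hz'
  have hm : u ∈ mult (stdPres Q) := ⟨(happ u).symm.trans hz, hu⟩
  rw [(hasCyclic_one_iff (stdPres Q) (stdPres_surjective Q)).mp h, Subgroup.mem_bot] at hm
  rw [hm, map_one]
  exact one_mem _

end Mult

end Cfsg.Agent.Lib.PSpMult
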