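import Cfsg.Agent.S2400
import Cfsg.Agent.S2395
import Cfsg.Agent.S2397
import Cfsg.Agent.S1077
import Cfsg.Agent.S1083
import Cfsg.Agent.S0301
import Cfsg.Agent.S0304
import Cfsg.Agent.Lib.Chev.Orders
import Cfsg.Agent.Lib.SchurMult.UnivCover
import Cfsg.Agent.Lib.Classical.SympSimple
import Cfsg.Agent.Lib.Classical.Symplectic

/-!
The Schur multiplier of `PSp₄(q)` from the Chevalley group of type `B₂`.
-/

set_option autoImplicit false

namespace Cfsg.Agent.Lib.PSpMult

open Cfsg Cfsg.Lie Cfsg.Agent.Lib.Chev Cfsg.Agent.Lib.SteinbergPres.Cover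

universe u

theorem psp_two_iso {F : Type u} [Field F] [Fintype F] (hq : 3 ≤ Fintype.card F) :
    Nonempty (↥(chevB2.group F) ≃* Cfsg.PSp 2 F) := by
  classical
  have hF : ∃ a : F, a ≠ 0 ∧ a ≠ 1 := by
    obtain ⟨x, -, hx⟩ := Finset.exists_mem_notMem_of_card_lt_card (s := ({0, 1} : Finset F)) (t := Finset.univ)
      (lt_of_le_of_lt Finset.card_le_two (by rw [Finset.card_univ]; omega))
    simp only [Finset.mem_insert, Finset.mem_singleton, not_or] at hx
    exact ⟨x, hx⟩
  obtain ⟨e⟩ := Cfsg.Agent.S1083.result hF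
  rcases Nat.even_or_odd (Fintype.card F) with hev | hodd
  · haveI : CharP F 2 := by
      have := (FiniteField.even_card_iff_char_two (F := F)).2 (Nat.even_iff.1 hev)
      exact ringChar.of_eq this
    obtain ⟨i⟩ := Cfsg.Agent.S0304.result (F := F) 2
    have hperf := Cfsg.Agent.Lib.Classical.sp_commutator_eq_top (F := F) 2 (Or.inr (Or.inl ⟨rfl, hq⟩))
    have htop : Cfsg.Omega F (Cfsg.quadFormOdd 2 F) = ⊤ := by
      have h1 : (Cfsg.Omega F (Cfsg.quadFormOdd 2 F)).map i.toMonoidHom = commutator _ := by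
        rw [Cfsg.Omega, map_commutator_eq, MonoidHom.range_eq_top.2 i.surjective, ← commutator_def]
      rw [hperf] at h1
      exact Subgroup.map_injective i.injective (h1.trans (Subgroup.map_top_of_surjective _ i.surjective).symm)
    let j : ↥(Cfsg.Omega F (Cfsg.quadFormOdd 2 F)) ≃* Matrix.symplecticGroup (Fin 2) F :=
      ((MulEquiv.subgroupCongr htop).trans Subgroup.topEquiv).trans i
    refine ⟨e.trans (QuotientGroup.congr _ _ j ?_)⟩
    ext x
    simp only [Subgroup.mem_map, MulEquiv.coe_toMonoidHom, Subgroup.mem_center_iff]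
    constructor
    · rintro ⟨y, hy, rfl⟩ g
      obtain ⟨g, rfl⟩ := j.surjective g
      show j g * j y = j y * j g
      rw [← map_mul, ← map_mul, hy g]
    · intro h
      obtain ⟨y, rfl⟩ := j.surjective x
      exact ⟨y, fun g => j.injective (by rw [map_mul, map_mul, h (j g)]), rfl⟩
  · obtain ⟨e'⟩ := Cfsg.Agent.S0301.result hodd
    exact ⟨e.trans e'⟩

theorem hasSchur_two {F : Type u} [Field F] [Fintype F] (hq : 3 ≤ Fintype.card F) :
    Cfsg.HasCyclicSchurMultiplier (Cfsg.PSp 2 F) (Nat.gcd 2 (Fintype.card F - 1)) := by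
  classical
  have hF : ∃ a : F, a ≠ 0 ∧ a ≠ 1 := by
    obtain ⟨x, -, hx⟩ := Finset.exists_mem_notMem_of_card_lt_card (s := ({0, 1} : Finset F)) (t := Finset.univ)
      (lt_of_le_of_lt Finset.card_le_two (by rw [Finset.card_univ]; omega))
    simp only [Finset.mem_insert, Finset.mem_singleton, not_or] at hx
    exact ⟨x, hx⟩
  set d := Nat.gcd 2 (Fintype.card F - 1) with hd
  have hd2 : d ∣ 2 := Nat.gcd_dvd_left _ _
  obtain ⟨θ, hsurj, hker, hθ⟩ := Cfsg.Agent.S1077.result (K := F) chevB2 (by simp)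
  obtain ⟨e⟩ := psp_two_iso hq
  have hkerd : Nat.card θ.ker ∣ d := by
    rw [ker_eq_map (C := B2.checked) θ hθ cover_B2]
    refine dvd_trans (Subgroup.card_map_dvd _ _) ?_
    rw [B2.checked.card_ker_cartanMap smith_B2, show B2.fast.l = 2 from rfl, Finset.prod_range_succ,
      Finset.prod_range_one, hd]
    simp
    exact (Nat.gcd_comm _ _).dvd
  haveI : Finite θ.ker := by
    refine Nat.finite_of_card_ne_zero fun h0 => ?_
    rw [h0, zero_dvd_iff] at hkerd
    rw [hkerd] at hd2
    norm_num at hd2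
  haveI : Fintype ↥(chevB2.group F) := Fintype.ofFinite _
  haveI : Finite (chevB2.SteinbergGroup F) := finite_of_ker θ
  have hperf : commutator (chevB2.SteinbergGroup F) = ⊤ := by
    obtain ⟨i, -⟩ := Cfsg.Agent.S2397.result (K := F) chevB2 (by simp) (fun _ => hF)
    have h := Cfsg.Agent.S2395.result (K := F) chevB2 (by simp) (fun _ => hF)
    have := map_commutator_eq _ i.toMonoidHom
    rw [h, Subgroup.map_top_of_surjective _ i.surjective, MonoidHom.range_eq_top.2 i.surjective, ← commutator_def] at this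
    exact this.symm
  have htriv := Cfsg.Agent.S2400.result (K := F) (chevB2, 2) (by simp) (show Fintype.card F ≠ 2 by omega)
  let σ : chevB2.SteinbergGroup F →* Cfsg.PSp 2 F := e.toMonoidHom.comp θ
  have hσker : σ.ker = θ.ker := by ext x; simp [σ]
  have hσ : Cfsg.IsStemExtension σ :=
    ⟨e.surjective.comp hsurj, by rw [hσker, hker], by rw [hperf]; exact le_top⟩
  haveI : IsCyclic θ.ker := by
    rcases (Nat.dvd_prime Nat.prime_two).1 (hkerd.trans hd2) with h | h
    · haveI := (Nat.card_eq_one_iff_unique.1 h).1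
      infer_instance
    · haveI : Fact (Nat.Prime 2) := ⟨Nat.prime_two⟩
      exact isCyclic_of_prime_card h
  set n := Nat.card θ.ker with hn
  have hU : Cfsg.HasSchurMultiplier (Cfsg.PSp 2 F) (Multiplicative (ZMod n)) :=
    Cfsg.Agent.Lib.SchurMult.hasSchurMultiplier_of_universal σ hσ hperf htriv
      ((MulEquiv.subgroupCongr hσker).trans (zmodCyclicMulEquiv (G := θ.ker) inferInstance).symm)
  -- the symplectic group is a stem extension with kernel of order `d`
  let π : Matrix.symplecticGroup (Fin 2) F →* Cfsg.PSp 2 F := QuotientGroup.mk' _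
  have hπ : Cfsg.IsStemExtension π :=
    ⟨QuotientGroup.mk'_surjective _, (QuotientGroup.ker_mk' _).le, by
      rw [Cfsg.Agent.Lib.Classical.sp_commutator_eq_top (F := F) 2 (Or.inr (Or.inl ⟨rfl, hq⟩))]; exact le_top⟩
  obtain ⟨f, hf⟩ := hU.2 _ π hπ
  have hπd : Nat.card π.ker = d := by
    rw [QuotientGroup.ker_mk', Cfsg.Agent.Lib.Classical.card_center_sp 2 (by norm_num), hd]
  haveI : NeZero n := ⟨Nat.card_pos.ne'⟩
  have h1 := Nat.card_le_card_of_surjective f hf
  rw [hπd, Nat.card_congr Multiplicative.toAdd, Nat.card_zmod] at h1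
  have hnd : n = d := le_antisymm (Nat.le_of_dvd (Nat.pos_of_dvd_of_pos hd2 two_pos) hkerd) h1
  rw [← hnd]
  exact hU

end Cfsg.Agent.Lib.PSpMult
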