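import Cfsg.Agent.Lib.PSpMult.Main
import Cfsg.Agent.Lib.PSpMult.Rank2

/-!
The Schur multiplier of the projective symplectic groups.
-/

set_option autoImplicit false

namespace Cfsg.Agent.Lib.PSpMult

universe u

open Cfsg.Agent.Lib.BoundedPres.Sp in
theorem hasTrivial_Sp {F : Type u} [Field F] [Fintype F] {k : ℕ} (hk : k = 0 → 3 ≤ Fintype.card F) :
    Cfsg.HasCyclicSchurMultiplier (Sp F k) 1 :=
  Cfsg.Agent.Lib.SteinbergPres.Cover.hasCyclic_one_of_section fun _Γ _ _ _σ hs hc => exists_section hs hc hk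

theorem hasSchur_PSp {F : Type u} [Field F] [Fintype F] {k : ℕ} (hk : k = 0 → 3 ≤ Fintype.card F) :
    Cfsg.HasCyclicSchurMultiplier (Cfsg.PSp (k + 3) F) (Nat.gcd 2 (Fintype.card F - 1)) := by
  classical
  set S := Matrix.symplecticGroup (Fin (k + 3)) F
  have hperf : commutator S = ⊤ :=
    Cfsg.Agent.Lib.Classical.sp_commutator_eq_top (F := F) (k + 3) (Or.inl (by omega))
  let π : S →* Cfsg.PSp (k + 3) F := QuotientGroup.mk' _
  have hπ : Cfsg.IsStemExtension π :=
    ⟨QuotientGroup.mk'_surjective _, (QuotientGroup.ker_mk' _).le, by rw [hperf]; exact le_top⟩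
  have hcard : Nat.card (Subgroup.center S) = Nat.gcd 2 (Fintype.card F - 1) :=
    Cfsg.Agent.Lib.Classical.card_center_sp (k + 3) (by omega)
  haveI : IsCyclic (Subgroup.center S) := by
    rcases (Nat.dvd_prime Nat.prime_two).1 (Nat.gcd_dvd_left 2 (Fintype.card F - 1)) with h | h
    · rw [h] at hcard
      haveI := (Nat.card_eq_one_iff_unique.1 hcard).1
      infer_instance
    · rw [h] at hcard
      haveI : Fact (Nat.Prime 2) := ⟨Nat.prime_two⟩
      exact isCyclic_of_prime_card hcard
  exact Cfsg.Agent.Lib.SchurMult.hasSchurMultiplier_of_universal π hπ hperf (hasTrivial_Sp hk)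
    ((MulEquiv.subgroupCongr (QuotientGroup.ker_mk' (Subgroup.center S))).trans
      (hcard ▸ (zmodCyclicMulEquiv (G := Subgroup.center S) inferInstance).symm))

end Cfsg.Agent.Lib.PSpMult
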