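import Cfsg.Agent.Lib.BoundedPres.SpRels

/-!
Tori and long root elements of the symplectic group.
-/

set_option autoImplicit false

namespace Cfsg.Agent.Lib.PSpMult

open Equiv Matrix Cfsg.Agent.Lib.GLn Cfsg.Agent.Lib.SLTwoPres.Core Cfsg.Agent.Lib.Classical Cfsg.Agent.Lib.Forms
open Cfsg.Agent.Lib.BoundedPres.Sp
open scoped commutatorElement

universe u

variable {F : Type u} [Field F] {k : ℕ}

/-- a diagonal element -/
def tor (d : Fin (k + 3) → Fˣ) : Sp F k :=
  ⟨fromBlocks (diagonal fun i => (d i : F)) 0 0 (diagonal fun i => (((d i)⁻¹ : Fˣ) : F)), by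
    rw [SymplecticGroup.mem_iff, Matrix.J, fromBlocks_transpose, fromBlocks_multiply, fromBlocks_multiply,
      fromBlocks_inj]
    simp [diagonal_transpose, diagonal_mul_diagonal]
    ext a b; simp [diagonal_apply, Matrix.one_apply]; split_ifs <;> simp⟩

theorem tor_mul (d d' : Fin (k + 3) → Fˣ) : tor d * tor d' = tor (d * d') := Subtype.ext (by
  show fromBlocks _ _ _ _ * fromBlocks _ _ _ _ = fromBlocks _ _ _ _
  simp [fromBlocks_multiply, diagonal_mul_diagonal, mul_comm])

theorem tor_commute (d d' : Fin (k + 3) → Fˣ) : Commute (tor d) (tor d') := by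
  show tor d * tor d' = tor d' * tor d
  rw [tor_mul, tor_mul, mul_comm]

theorem tor_mulVec (d : Fin (k + 3) → Fˣ) (p q : Fin (k + 3) → F) :
    smat (tor d) *ᵥ Sum.elim p q = Sum.elim (fun i => (d i : F) * p i) (fun i => (((d i)⁻¹ : Fˣ) : F) * q i) := by
  show fromBlocks _ _ _ _ *ᵥ _ = _
  rw [fromBlocks_mulVec]
  funext x
  rcases x with i | i <;> simp [mulVec_diagonal]

theorem tor_emS_mul (d : Fin (k + 3) → Fˣ) {i j : Fin (k + 3)} (h : i ≠ j) (t : F) :
    tor d * emS (tr h t) = emS (tr h ((d i : F) * t * (d j : F)⁻¹)) * tor d := by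
  refine sp_eq fun p q => ?_
  have hinv : ∀ t : F, (tr h t : SL F k)⁻¹ = tr h (-t) := fun t =>
    inv_eq_of_mul_eq_one_right (by rw [← tr_add, add_neg_cancel, tr_zero])
  rw [smat_mul, smat_mul, ← mulVec_mulVec, ← mulVec_mulVec, emS_mulVec, tor_mulVec, tor_mulVec, emS_mulVec, hinv, hinv,
    tr_mulVec, tr_mulVec, vecMul_tr, vecMul_tr]
  congr 1 <;> funext a <;> simp only [Pi.add_apply, Pi.smul_apply, E, Pi.single_apply, smul_eq_mul]
  · rcases eq_or_ne a i with rfl | ha
    · simp only [if_pos]; field_simp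
    · simp [ha]
  · rcases eq_or_ne a j with rfl | ha
    · simp only [if_pos, Units.val_inv_eq_inv_val]; field_simp
    · simp [ha]

theorem tor_emL (d : Fin (k + 3) → Fˣ) (y : Matrix.SpecialLinearGroup (Fin 2) F) :
    tor d * emL y = emL (H' (d 0) * y * (H' (d 0))⁻¹) * tor d := by
  refine sp_eq fun p q => ?_
  rw [smat_mul, smat_mul, ← mulVec_mulVec, ← mulVec_mulVec, emL_mulVec, tor_mulVec, tor_mulVec, emL_mulVec]
  obtain ⟨c00, c01, c10, c11⟩ := coe_H' (d 0)
  congr 1 <;> funext i <;> simp only [Function.update_apply] <;> split_ifs with hi <;> try rfl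
  all_goals
    subst hi
    simp only [Matrix.SpecialLinearGroup.coe_mul, Matrix.SpecialLinearGroup.coe_inv, adjugate_fin_two,
      Matrix.mul_apply, Fin.sum_univ_two, c00, c01, c10, c11]
    simp
    field_simp

theorem tor_commute_emL (d : Fin (k + 3) → Fˣ) (hd : d 0 = 1) (y : Matrix.SpecialLinearGroup (Fin 2) F) :
    Commute (tor d) (emL y) := by
  show _ * _ = _
  have h1 : H' (1 : Fˣ) = (1 : Matrix.SpecialLinearGroup (Fin 2) F) := by
    ext a b; fin_cases a <;> fin_cases b <;> simp [H']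
  rw [tor_emL, hd, h1, one_mul, inv_one, mul_one]

theorem tor_const_emS (α : Fˣ) (g : SL F k) : Commute (tor fun _ => α) (emS g) := by
  refine sp_eq fun p q => ?_
  rw [smat_mul, smat_mul, ← mulVec_mulVec, ← mulVec_mulVec, emS_mulVec, tor_mulVec, tor_mulVec, emS_mulVec,
    show (fun i => (α : F) * p i) = (α : F) • p from rfl,
    show (fun i => ((α⁻¹ : Fˣ) : F) * q i) = ((α⁻¹ : Fˣ) : F) • q from rfl, mulVec_smul, smul_vecMul]
  rfl

theorem tr_chain {i j l : Fin (k + 3)} (hij : i ≠ j) (hjl : j ≠ l) (hil : i ≠ l) (t u : F) :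
    ⁅tr hij t, tr hjl u⁆ = (tr hil (t * u) : SL F k) := by
  rw [commutatorElement_def, mul_inv_eq_iff_eq_mul, mul_inv_eq_iff_eq_mul]
  refine Subtype.ext ?_
  rw [Matrix.SpecialLinearGroup.coe_mul, Matrix.SpecialLinearGroup.coe_mul, Matrix.SpecialLinearGroup.coe_mul]
  change Matrix.transvection i j t * Matrix.transvection j l u =
    Matrix.transvection i l (t * u) * Matrix.transvection j l u * Matrix.transvection i j t
  simp [Matrix.transvection, add_mul, mul_add, hij.symm, hjl.symm, hil.symm]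
  abel

theorem tr_commute {i j a b : Fin (k + 3)} (h : i ≠ j) (h' : a ≠ b) (hib : i ≠ b) (hja : j ≠ a) (t u : F) :
    Commute (tr h t : SL F k) (tr h' u) := Subtype.ext (by
  rw [Matrix.SpecialLinearGroup.coe_mul, Matrix.SpecialLinearGroup.coe_mul]
  change Matrix.transvection i j t * Matrix.transvection a b u = Matrix.transvection a b u * Matrix.transvection i j t
  simp [Matrix.transvection, add_mul, mul_add, hja, hib.symm]
  abel)

theorem blkHom_transvection {a b : Fin (k + 2)} (h : a ≠ b) (t : F) :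
    blkHom (F := F) (k := k) (SpecialLinearGroup.transvection h t) =
      tr (i := blkEquiv k (Sum.inr a)) (j := blkEquiv k (Sum.inr b))
        (fun e => h (Sum.inr_injective ((blkEquiv k).injective e))) t := by
  refine Subtype.ext ?_
  change Matrix.reindex (blkEquiv k) (blkEquiv k) (fromBlocks 1 0 0 (Matrix.transvection a b t)) =
    Matrix.transvection _ _ t
  ext x y
  obtain ⟨x, rfl⟩ := (blkEquiv k).surjective x
  obtain ⟨y, rfl⟩ := (blkEquiv k).surjective y
  rcases x with x | x <;> rcases y with y | y <;>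
    simp [Matrix.transvection, Matrix.one_apply, Matrix.single_apply]

theorem blkEquiv_inr_ne (a : Fin (k + 2)) : blkEquiv k (Sum.inr a) ≠ 0 := fun e => by
  rw [← blkEquiv_inl (k := k) 0] at e
  exact Sum.inr_ne_inl ((blkEquiv k).injective e)

/-- some element with the given first column -/
noncomputable def col (v : Fin (k + 3) → F) : SL F k :=
  haveI := _root_.Classical.decEq (Fin (k + 3) → F)
  if h : v = 0 then 1 else (exists_col v h).choose

theorem col_spec {v : Fin (k + 3) → F} (hv : v ≠ 0) : mat (col v) *ᵥ E 0 = v := by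
  rw [col, dif_neg hv]
  exact (exists_col v hv).choose_spec

/-- a long root element -/
noncomputable def XV (v : Fin (k + 3) → F) (t : F) : Sp F k := emS (col v) * emL (X' t) * (emS (col v))⁻¹

theorem XV_eq {v : Fin (k + 3) → F} {g : SL F k} (hg : mat g *ᵥ E 0 = v) (t : F) :
    emS g * emL (X' t) * (emS g)⁻¹ = XV v t :=
  em_long_eq (hg.trans (col_spec (by rw [← hg]; exact mulVec_ne g (E_ne 0))).symm) t

theorem XV_E0 (t : F) : XV (E 0 : Fin (k + 3) → F) t = emL (X' t) := by
  rw [← XV_eq (g := 1) (one_mulVec'' _), map_one, one_mul, inv_one, mul_one]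

theorem XV_mat {v : Fin (k + 3) → F} (hv : v ≠ 0) (t : F) :
    smat (XV v t) = upB (Multiplicative.ofAdd (t • vecMulVec v v)) := by
  rw [XV, em_long, col_spec hv]

theorem XV_conj (g : SL F k) {v : Fin (k + 3) → F} (hv : v ≠ 0) (t : F) :
    emS g * XV v t * (emS g)⁻¹ = XV (mat g *ᵥ v) t := by
  rw [← XV_eq (v := mat g *ᵥ v) (g := g * col v) (by rw [Cfsg.Agent.Lib.BoundedPres.Sp.mul_mulVec', col_spec hv]), XV, map_mul]
  group

theorem XV_commute {v w : Fin (k + 3) → F} (hv : v ≠ 0) (hw : w ≠ 0) (s t : F) : Commute (XV v s) (XV w t) := by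
  refine Subtype.ext ?_
  show smat _ = smat _
  rw [smat_mul, smat_mul, XV_mat hv, XV_mat hw, ← upB.map_mul, ← upB.map_mul, mul_comm]

/-- shears of the first coordinate -/
def shear (φ : Fin (k + 3) → F) : SL F k := tv (E 0) (Function.update φ 0 0) (by rw [dot_E]; simp)

theorem coe_shear (φ : Fin (k + 3) → F) : mat (shear φ) = 1 + vecMulVec (E 0) (Function.update φ 0 0) := coe_tv _ _ _

theorem shear_add (φ ψ : Fin (k + 3) → F) : (shear (φ + ψ) : SL F k) = shear φ * shear ψ := by
  refine Subtype.ext ?_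
  show mat _ = mat _
  rw [mat_mul', coe_shear, coe_shear, coe_shear, add_mul, mul_add, mul_add, one_mul, one_mul, mul_one,
    vecMulVec_mul, vecMul_vecMulVec, dot_E, Function.update_self, zero_smul,
    show Function.update (φ + ψ) 0 0 = Function.update φ 0 0 + Function.update ψ 0 0 by
      funext i; rcases eq_or_ne i 0 with rfl | h <;> simp [*],
    vecMulVec_add]
  rw [vecMulVec_zero, add_zero]
  abel

theorem shear_single {j : Fin (k + 3)} (hj : j ≠ 0) (c : F) :
    (shear (Pi.single j c) : SL F k) = tr hj.symm c := by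
  refine Subtype.ext ?_
  show mat _ = Matrix.transvection 0 j c
  rw [coe_shear, Function.update_eq_self_iff.2 (by simp [hj.symm])]
  ext a b
  simp only [Matrix.transvection, Matrix.add_apply, Matrix.single_apply, vecMulVec_apply, E, Pi.single_apply]
  by_cases ha : a = 0 <;> by_cases hb : b = j <;> simp [ha, hb, eq_comm] <;> intro h <;> exact absurd h.symm hb

theorem shear_single_zero (c : F) : (shear (Pi.single 0 c) : SL F k) = 1 := by
  refine Subtype.ext ?_
  show mat _ = _
  rw [coe_shear, show Function.update (Pi.single 0 c : Fin (k + 3) → F) 0 0 = 0 by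
    funext i; rcases eq_or_ne i 0 with rfl | h <;> simp [*]]
  simp

theorem shear_zero : (shear 0 : SL F k) = 1 := by
  rw [← shear_single_zero (k := k) (0 : F), Pi.single_zero]

theorem exists_blk_shear {g : SL F k} (hg : mat g *ᵥ E 0 = E 0) :
    ∃ b ∈ Blk F k, ∃ φ, g = b * shear φ := by
  refine ⟨g * shear (-(E 0 ᵥ* mat g - E 0)), ⟨?_, ?_⟩, E 0 ᵥ* mat g - E 0, ?_⟩
  · rw [Cfsg.Agent.Lib.BoundedPres.Sp.mul_mulVec', coe_shear, add_mulVec, one_mulVec, vecMulVec_mulVec, dot_E, Function.update_self]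
    simp [hg]
  · have h00 : (E 0 ᵥ* mat g) 0 = 1 := by
      have h := congrFun hg 0
      rw [mulVec_E] at h
      rw [E_vecMul]
      simp [E] at h ⊢
      exact h
    rw [vecMul_mul', coe_shear, vecMul_add, vecMul_one, vecMul_vecMulVec, dot_E, h00, one_smul]
    funext i
    rcases eq_or_ne i 0 with rfl | h
    · rw [E_vecMul] at h00
      simp [E]
      exact h00
    · simp [h, E]
  · rw [mul_assoc, ← shear_add, neg_add_cancel, shear_zero, mul_one]

end Cfsg.Agent.Lib.PSpMult
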