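import Cfsg.Agent.Lib.PSpMult.Basic
import Cfsg.Agent.Lib.PSpMult.Geom

/-!
Commutation of lifts in a central extension of the symplectic group.
-/

set_option autoImplicit false

namespace Cfsg.Agent.Lib.PSpMult

open Equiv Matrix Cfsg.Agent.Lib.GLn Cfsg.Agent.Lib.SLTwoPres.Core Cfsg.Agent.Lib.Classical Cfsg.Agent.Lib.Forms
open Cfsg.Agent.Lib.BoundedPres.Sp
open scoped commutatorElement

universe u v

variable {F : Type u} [Field F] [Fintype F] {k : ℕ} {E' : Type v} [Group E'] {σ : E' →* Sp F k}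
  (hs : Function.Surjective σ) (hc : σ.ker ≤ Subgroup.center E')

theorem stab_commute {g : SL F k} (hg : mat g *ᵥ E 0 = E 0) (t : F) : Commute (emL (X' t)) (emS g) := by
  have h := em_long_eq (g := g) (g' := 1) (hg.trans (one_mulVec'' _).symm) t
  rw [map_one, one_mul, inv_one, mul_one, mul_inv_eq_iff_eq_mul] at h
  exact h.symm

theorem exists_ne_zero_one (h : 3 ≤ Fintype.card F) : ∃ a : F, a ≠ 0 ∧ a ≠ 1 := by
  classical
  obtain ⟨a, -, ha⟩ := Finset.exists_mem_notMem_of_card_lt_card (s := ({0, 1} : Finset F)) (t := Finset.univ)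
    (lt_of_le_of_lt Finset.card_le_two (by rw [Finset.card_univ]; omega))
  simp only [Finset.mem_insert, Finset.mem_singleton, not_or] at ha
  exact ⟨a, ha⟩

theorem exists_four (hk : 1 ≤ k) (a b c : Fin (k + 3)) : ∃ z, z ≠ a ∧ z ≠ b ∧ z ≠ c := by
  by_contra h
  push Not at h
  have hsub : (Finset.univ : Finset (Fin (k + 3))) ⊆ {a, b, c} := fun z _ => by
    simp only [Finset.mem_insert, Finset.mem_singleton]
    by_contra hz
    push Not at hz
    exact hz.2.2 (h z hz.1 hz.2.1)
  have := (Finset.card_le_card hsub).trans Finset.card_le_three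
  simp at this
  omega

include hs hc

theorem cl_tr (hk : k = 0 → 3 ≤ Fintype.card F) (y : Matrix.SpecialLinearGroup (Fin 2) F) {i j : Fin (k + 3)}
    (h : i ≠ j) (hi : i ≠ 0) (hj : j ≠ 0) (t : F) : CL σ (emL y) (emS (tr h t)) := by
  by_cases h0 : k = 0
  · obtain ⟨a, ha0, ha1⟩ := exists_ne_zero_one (hk h0)
    let d : Fin (k + 3) → Fˣ := Function.update (fun _ => 1) i (Units.mk0 a ha0)
    have e : emS (tr h t) = ⁅tor d, emS (tr h (t / (a - 1)))⁆ := by
      rw [commutatorElement_def, tor_emS_mul, mul_inv_cancel_right,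
        show (d i : F) = a by simp [d], show (d j : F) = 1 by simp [d, Function.update_of_ne h.symm], inv_one, mul_one,
        ← map_inv, ← map_mul, show (tr h (t / (a - 1)) : SL F k)⁻¹ = tr h (-(t / (a - 1))) from
          inv_eq_of_mul_eq_one_right (by rw [← tr_add, add_neg_cancel, tr_zero]), ← tr_add]
      congr 2
      field_simp [sub_ne_zero.2 ha1]
      ring
    rw [e]
    exact CL.comm hs hc (tor_commute_emL d (by simp [d, Function.update_of_ne hi.symm]) y).symm
      (em_stab (tr_mem_blk h hi hj _) y).symm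
  · obtain ⟨m, hm0, hmi, hmj⟩ := exists_four (k := k) (by omega) 0 i j
    rw [show tr h t = ⁅(tr hmi.symm t : SL F k), tr hmj 1⁆ by rw [tr_chain _ _ h, mul_one], map_commutatorElement]
    exact CL.comm hs hc (em_stab (tr_mem_blk _ hi hm0 _) y).symm (em_stab (tr_mem_blk _ hm0 hj _) y).symm

theorem cl_blk (hk : k = 0 → 3 ≤ Fintype.card F) (y : Matrix.SpecialLinearGroup (Fin 2) F) {g : SL F k}
    (hg : g ∈ Blk F k) : CL σ (emL y) (emS g) := by
  obtain ⟨h, rfl⟩ := blk_le hg
  refine Cfsg.Agent.Lib.Classical.SL_transvection_induction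
    (fun h => CL σ (emL y) (emS (blkHom (k := k) h))) (by rw [map_one, map_one]; exact CL.one hc _)
    (fun a b hab t => ?_) (fun A B hA hB => by rw [map_mul, map_mul]; exact CL.mul hs hc hA hB) h
  show CL σ (emL y) (emS (blkHom (SpecialLinearGroup.transvection hab t)))
  rw [blkHom_transvection hab t]
  exact cl_tr hs hc hk y _ (blkEquiv_inr_ne a) (blkEquiv_inr_ne b) t

/-- differences of two commutators give every long root element -/
theorem cl_diff (hq : 3 ≤ Fintype.card F) (x : Sp F k) {i j : Fin (k + 3)} (hij : i ≠ j)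
    (hg : ∀ a, Commute x (emS (tr hij a))) (hX : ∀ t, Commute x (XV (E j) t)) (d : F) :
    CL σ x (XV (E i) d) := by
  obtain ⟨r, hr0, hr1⟩ := exists_ne_zero_one hq
  have hcomm : ∀ a t : F, CL σ x ⁅emS (tr hij a), XV (E j) t⁆ := fun a t => CL.comm hs hc (hg a) (hX t)
  have hv : ∀ a : F, (E j + a • E i : Fin (k + 3) → F) ≠ 0 := fun a e => by
    have := congrFun e j
    simp [E, hij.symm] at this
  have hmat : ∀ a t : F, smat ⁅emS (tr hij a), XV (E j) t⁆ =
      upB (Multiplicative.ofAdd ((t * a) • (vecMulVec (E i) (E j) + vecMulVec (E j) (E i)) +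
        (t * a * a) • vecMulVec (E i) (E i))) := fun a t => by
    have hinv : (XV (E j : Fin (k + 3) → F) t)⁻¹ = XV (E j) (-t) := by
      refine inv_eq_of_mul_eq_one_right (Subtype.ext ?_)
      show smat _ = _
      rw [smat_mul, XV_mat (E_ne j), XV_mat (E_ne j), ← upB.map_mul, ← ofAdd_add, ← add_smul, add_neg_cancel,
        zero_smul, ofAdd_zero, map_one]
      rfl
    rw [commutatorElement_def, XV_conj _ (E_ne j), hinv, tr_mulVec,
      show (a * (E j : Fin (k + 3) → F) j) = a by simp [E], smat_mul, XV_mat (hv a), XV_mat (E_ne j), ← upB.map_mul,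
      ← ofAdd_add]
    congr 2
    ext u w
    simp only [Matrix.add_apply, Matrix.smul_apply, vecMulVec_apply, Pi.add_apply, Pi.smul_apply, smul_eq_mul]
    ring
  set t := d / (1 - r)
  have e : XV (E i : Fin (k + 3) → F) d = ⁅emS (tr hij (1 : F)), XV (E j) t⁆ * ⁅emS (tr hij r), XV (E j) (t / r)⁆⁻¹ := by
    rw [eq_mul_inv_iff_mul_eq]
    refine Subtype.ext ?_
    show smat _ = smat _
    rw [smat_mul, XV_mat (E_ne i), hmat, hmat, ← upB.map_mul, ← ofAdd_add]
    congr 2
    rw [show t / r * r = t by field_simp, mul_one, mul_one,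
      show d = t - t * r by rw [← mul_one_sub, div_mul_cancel₀ _ (sub_ne_zero.2 (Ne.symm hr1))]]
    ext u w
    simp only [Matrix.add_apply, Matrix.smul_apply, smul_eq_mul]
    ring
  rw [e]
  exact CL.mul hs hc (hcomm _ _) (CL.inv hs hc (hcomm _ _))

theorem cl_self (hk : k = 0 → 3 ≤ Fintype.card F) (s d : F) : CL σ (emL (k := k) (X' s)) (emL (X' d)) := by
  have h0 : CL σ (emL (k := k) (X' (0 : F))) (emL (X' d)) := by
    rw [X'_zero, map_one]; exact (CL.one hc _).symm
  by_cases hq : 3 ≤ Fintype.card F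
  · rw [← XV_E0 (k := k) d]
    exact cl_diff hs hc hq _ zero_ne_one' (fun a => stab_commute (by rw [tr_mulVec]; simp [E]) s)
      (fun t => by rw [← XV_E0 (k := k) s]; exact XV_commute (E_ne 0) (E_ne 1) s t) d
  · classical
    have h01 : ∀ x : F, x = 0 ∨ x = 1 := fun x => by
      by_contra h
      push Not at h
      have := Finset.card_le_univ ({0, 1, x} : Finset F)
      rw [Finset.card_insert_of_notMem (by simp [Ne.symm h.1]), Finset.card_pair (Ne.symm h.2)] at this
      omega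
    rcases h01 s with rfl | rfl <;> rcases h01 d with rfl | rfl
    · exact CL.self hc _
    · exact h0
    · rw [X'_zero, map_one]; exact CL.one hc _
    · exact CL.self hc _

theorem cl_X1 (hk : k = 0 → 3 ≤ Fintype.card F) (y : Matrix.SpecialLinearGroup (Fin 2) F) (t : F) :
    CL σ (emL (k := k) y) (XV (E 1) t) := by
  have hX : ∀ g ∈ Blk F k, ∀ j : Fin (k + 3), j ≠ 0 → ∀ t, Commute (emL y) (XV (mat g *ᵥ E 1) t) := by
    intro g hg j _ t
    have h1 : Commute (emL (k := k) y) (XV (E 1) t) := by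
      rw [← XV_eq (g := wsw F k) wsw_spec.1]
      exact em_ll _ _
    rw [← XV_conj g (E_ne 1)]
    exact Commute.mul_right (Commute.mul_right (em_stab hg y).symm h1) (em_stab hg y).symm.inv_right
  by_cases h0 : k = 0
  · obtain ⟨g, hg, hg1⟩ := exists_blk_col (F := F) (k := k) (E 2) (E_ne 2) (by simp [E, two_ne_zero''.symm])
    refine cl_diff hs hc (hk h0) _ (i := 1) (j := 2) (by simp [Fin.ext_iff, Nat.mod_eq_of_lt]) (fun a => ?_) (fun t => ?_) t
    · exact (em_stab (tr_mem_blk _ one_ne_zero' (by exact two_ne_zero'') a) y).symm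
    · rw [← hg1]; exact hX g hg 1 one_ne_zero' t
  · -- every `XV v` is congruent to `XV (E 1)`, and seven of them have a relation
    have hcong : ∀ v : Fin (k + 3) → F, v ≠ 0 → v 0 = 0 → CL σ (emL y) (XV v t * (XV (E 1) t)⁻¹) := by
      intro v hv hv0
      obtain ⟨g, hg, hg1⟩ := exists_blk_col v hv hv0
      have h1 : Commute (emL (k := k) y) (XV (E 1) t) := by
        rw [← XV_eq (g := wsw F k) wsw_spec.1]; exact em_ll _ _
      rw [← hg1, ← XV_conj g (E_ne 1), ← commutatorElement_def]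
      exact CL.comm hs hc (em_stab hg y).symm h1
    obtain ⟨z, hz0, hz1, hz2⟩ := exists_four (k := k) (by omega) 0 1 2
    have n12 : (1 : Fin (k + 3)) ≠ 2 := by simp [Fin.ext_iff, Nat.mod_eq_of_lt]
    have n20 : (2 : Fin (k + 3)) ≠ 0 := two_ne_zero''
    have hid : XV (E 1 + E 2 + E z) t * (XV (E 1) t)⁻¹ * (XV (E 2) t * (XV (E 1) t)⁻¹) * (XV (E z) t * (XV (E 1) t)⁻¹) *
        (XV (E 1 + E 2) t * (XV (E 1) t)⁻¹)⁻¹ * (XV (E 1 + E z) t * (XV (E 1) t)⁻¹)⁻¹ *
        (XV (E 2 + E z) t * (XV (E 1) t)⁻¹)⁻¹ = (XV (E 1) t)⁻¹ := by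
      have hne : ∀ v : Fin (k + 3) → F, (∃ i, v i ≠ 0) → v ≠ 0 := fun v ⟨i, hi⟩ e => hi (by rw [e]; rfl)
      have hinv : ∀ v : Fin (k + 3) → F, v ≠ 0 →
          smat (XV v t)⁻¹ = upB (Multiplicative.ofAdd (-(t • vecMulVec v v))) := fun v hv => by
        have h1 : upB (Multiplicative.ofAdd (-(t • vecMulVec v v))) * smat (XV v t) = 1 := by
          rw [XV_mat hv, ← upB.map_mul, ← ofAdd_add, neg_add_cancel, ofAdd_zero, map_one]
        calc smat (XV v t)⁻¹ = upB (Multiplicative.ofAdd (-(t • vecMulVec v v))) * smat (XV v t) * smat (XV v t)⁻¹ := by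
              rw [h1, one_mul]
          _ = _ := by rw [Matrix.mul_assoc, ← smat_mul, mul_inv_cancel]; exact mul_one _
      refine Subtype.ext ?_
      show smat _ = smat _
      have n1 : (E 1 + E 2 + E z : Fin (k + 3) → F) ≠ 0 := hne _ ⟨1, by simp [E, n12, Ne.symm hz1]⟩
      have n2 : (E 1 + E 2 : Fin (k + 3) → F) ≠ 0 := hne _ ⟨1, by simp [E, n12]⟩
      have n3 : (E 1 + E z : Fin (k + 3) → F) ≠ 0 := hne _ ⟨1, by simp [E, Ne.symm hz1]⟩
      have n4 : (E 2 + E z : Fin (k + 3) → F) ≠ 0 := hne _ ⟨2, by simp [E, Ne.symm hz2]⟩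
      simp only [_root_.mul_inv_rev, inv_inv, smat_mul, hinv _ n2, hinv _ n3, hinv _ n4, hinv _ (E_ne 1),
        XV_mat n1, XV_mat (E_ne 2), XV_mat (E_ne z), XV_mat (E_ne 1), ← upB.map_mul, ← ofAdd_add]
      refine congrArg (fun S => upB (Multiplicative.ofAdd S)) ?_
      ext u w
      simp only [Matrix.add_apply, Matrix.neg_apply, Matrix.smul_apply, vecMulVec_apply, Pi.add_apply, smul_eq_mul]
      ring
    have hv0 : ∀ v : Fin (k + 3) → F, v ≠ 0 → v 0 = 0 → (XV v t * (XV (E 1) t)⁻¹) ∈ cl hs hc (emL y) := hcong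
    have hne : ∀ v : Fin (k + 3) → F, (∃ i, v i ≠ 0) → v ≠ 0 := fun v ⟨i, hi⟩ e => hi (by rw [e]; rfl)
    have : (XV (E 1) t)⁻¹ ∈ cl hs hc (emL y) := by
      rw [← hid]
      refine mul_mem (mul_mem (mul_mem (mul_mem (mul_mem (hv0 _ ?_ ?_) (hv0 _ ?_ ?_)) (hv0 _ ?_ ?_))
        (inv_mem (hv0 _ ?_ ?_))) (inv_mem (hv0 _ ?_ ?_))) (inv_mem (hv0 _ ?_ ?_))
      · exact hne _ ⟨1, by simp [E, n12, Ne.symm hz1]⟩
      · simp [E, Ne.symm hz0, n20.symm, one_ne_zero'.symm]
      · exact E_ne 2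
      · simp [E, n20.symm]
      · exact E_ne z
      · simp [E, Ne.symm hz0]
      · exact hne _ ⟨1, by simp [E, n12]⟩
      · simp [E, n20.symm, one_ne_zero'.symm]
      · exact hne _ ⟨1, by simp [E, Ne.symm hz1]⟩
      · simp [E, Ne.symm hz0, one_ne_zero'.symm]
      · exact hne _ ⟨2, by simp [E, Ne.symm hz2]⟩
      · simp [E, n20.symm, Ne.symm hz0]
    exact inv_mem_iff.1 this

theorem cl_ll (hk : k = 0 → 3 ≤ Fintype.card F) (y y' : Matrix.SpecialLinearGroup (Fin 2) F) :
    CL σ (emL (k := k) y) (emS (wsw F k) * emL y' * (emS (wsw F k))⁻¹) := by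
  let f : Matrix.SpecialLinearGroup (Fin 2) F →* Sp F k := (MulAut.conj (emS (wsw F k))).toMonoidHom.comp emL
  have hX : ∀ t, f (X' t) ∈ cl hs hc (emL y) := fun t => by
    show CL σ _ (emS (wsw F k) * emL (X' t) * (emS (wsw F k))⁻¹)
    rw [XV_eq wsw_spec.1]
    exact cl_X1 hs hc hk y t
  refine Cfsg.Agent.Lib.Classical.SL_transvection_induction (fun y' => f y' ∈ cl hs hc (emL y))
    (by rw [map_one]; exact one_mem _) (fun a b hab c => ?_)
    (fun A B hA hB => by rw [map_mul]; exact mul_mem hA hB) y'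
  fin_cases a <;> fin_cases b <;> first | exact absurd rfl hab | skip
  · convert hX c using 2
    refine Subtype.ext ?_
    change Matrix.transvection 0 1 c = (X' c).1
    ext i j; fin_cases i <;> fin_cases j <;> simp [Matrix.transvection, X']
  · have e : SpecialLinearGroup.transvection hab c = T' * X' (-c) * (T' : Matrix.SpecialLinearGroup (Fin 2) F)⁻¹ := by
      refine Subtype.ext ?_
      rw [Matrix.SpecialLinearGroup.coe_mul, Matrix.SpecialLinearGroup.coe_mul, Matrix.SpecialLinearGroup.coe_inv]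
      change Matrix.transvection 1 0 c = _
      ext i j; fin_cases i <;> fin_cases j <;>
        simp [Matrix.transvection, T', X', Matrix.mul_apply, Fin.sum_univ_two, adjugate_fin_two]
    show f (SpecialLinearGroup.transvection hab c) ∈ _
    rw [e, map_mul, map_mul, map_inv]
    exact CL.conj_right hs hc (em_ll y T').symm (hX (-c))

theorem cl_stab (hk : k = 0 → 3 ≤ Fintype.card F) {g : SL F k} (hg : mat g *ᵥ E 0 = E 0) (t : F) :
    CL σ (emL (X' t)) (emS g) := by
  obtain ⟨b, hb, φ, rfl⟩ := exists_blk_shear hg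
  rw [map_mul]
  refine CL.mul hs hc (cl_blk hs hc hk _ hb) ?_
  rw [← Finset.univ_sum_single φ]
  refine Finset.sum_induction _ (fun φ => CL σ (emL (X' t)) (emS (shear φ)))
    (fun a b ha hb => by rw [shear_add, map_mul]; exact CL.mul hs hc ha hb)
    (by rw [shear_zero, map_one]; exact CL.one hc _) fun j _ => ?_
  rcases eq_or_ne j 0 with rfl | hj
  · rw [shear_single_zero, map_one]; exact CL.one hc _
  obtain ⟨m, hm0, hmj⟩ := exists_third (0 : Fin (k + 3)) j
  rw [shear_single hj, show tr hj.symm (φ j) = ⁅(tr hm0.symm (φ j) : SL F k), tr hmj 1⁆ by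
    rw [tr_chain _ _ hj.symm, mul_one], map_commutatorElement]
  exact CL.comm hs hc (stab_commute (by rw [tr_mulVec]; simp [E, hm0]) t)
    (stab_commute (by rw [tr_mulVec]; simp [E, hj]) t)

theorem cl_XV (hk : k = 0 → 3 ≤ Fintype.card F) (s t : F) {w : Fin (k + 3) → F} (hw : w ≠ 0) :
    CL σ (emL (X' s)) (XV w t) := by
  by_cases hu : Function.update w 0 0 = 0
  · have e : XV w t = emL (X' (t * (w 0 * w 0))) := by
      refine Subtype.ext ?_
      show smat _ = smat _
      rw [XV_mat hw, emL_X]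
      congr 2
      have : w = w 0 • E 0 := by
        funext i
        rcases eq_or_ne i 0 with rfl | h
        · simp [E]
        · simpa [E, h] using congrFun hu i
      conv_lhs => rw [this]
      rw [smul_vecMulVec, vecMulVec_smul, smul_smul, smul_smul]
      congr 1
      ring
    rw [e]
    exact cl_self hs hc hk _ _
  · obtain ⟨h, hh, hh1⟩ := exists_blk_col (Function.update w 0 0) hu (by simp)
    let g : SL F k := h * tr zero_ne_one' (w 0)
    have hg1 : mat g *ᵥ E 1 = w := by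
      rw [BoundedPres.Sp.mul_mulVec', tr_mulVec, mulVec_add, mulVec_smul, hh1, (mem_blk.1 hh).1]
      funext i
      rcases eq_or_ne i 0 with rfl | h <;> simp [E, *]
    have hg0 : mat g *ᵥ E 0 = E 0 := by
      rw [BoundedPres.Sp.mul_mulVec', tr_mulVec,
        show (E 0 : Fin (k + 3) → F) 1 = 0 by simp [E], mul_zero, zero_smul, add_zero, (mem_blk.1 hh).1]
    rw [← hg1, ← XV_conj g (E_ne 1), ← XV_eq (g := wsw F k) wsw_spec.1]
    exact CL.conj_right hs hc (stab_commute hg0 s).symm (cl_ll hs hc hk _ _)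

theorem cl_XV_XV (hk : k = 0 → 3 ≤ Fintype.card F) (s t : F) {v w : Fin (k + 3) → F} (hv : v ≠ 0) (hw : w ≠ 0) :
    CL σ (XV v s) (XV w t) := by
  have h := CL.conj hs hc (emS (col v)) (cl_XV hs hc hk s t (mulVec_ne (col v)⁻¹ hw))
  rwa [XV_eq (col_spec hv), XV_conj _ (mulVec_ne (col v)⁻¹ hw), ← BoundedPres.Sp.mul_mulVec', mul_inv_cancel,
    one_mulVec''] at h

end Cfsg.Agent.Lib.PSpMult
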