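import Cfsg.Agent.Lib.PSpMult.SLn
import Cfsg.Agent.Lib.PSpMult.Levi
import Cfsg.Agent.Lib.SchurMult.SLn

/-!
The lift of the Levi factor.
-/

set_option autoImplicit false

namespace Cfsg.Agent.Lib.PSpMult

open Equiv Matrix Cfsg.Agent.Lib.GLn Cfsg.Agent.Lib.SLTwoPres.Core Cfsg.Agent.Lib.Classical Cfsg.Agent.Lib.Forms
open Cfsg.Agent.Lib.BoundedPres.Sp Cfsg.Agent.Lib.SteinbergPres
open scoped commutatorElement

universe u

variable {F : Type u} [Field F] [Fintype F] {k : ℕ} {E' : Type u} [Group E'] [Finite E'] {σ : E' →* Sp F k}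
  (hs : Function.Surjective σ) (hc : σ.ker ≤ Subgroup.center E')

include hs hc

/-- over two elements in degree four, disjoint transvections lift to commuting elements -/
theorem cl_disjoint (hk : k = 1) (hq : Fintype.card F = 2) {a b c d : Fin (k + 3)} (hab : a ≠ b) (hcd : c ≠ d)
    (hac : a ≠ c) (had : a ≠ d) (hbc : b ≠ c) (hbd : b ≠ d) :
    CL σ (emS (tr hab (1 : F))) (emS (tr hcd (1 : F))) := by
  subst hk
  have hk' : (1 : ℕ) = 0 → 3 ≤ Fintype.card F := fun h => absurd h one_ne_zero
  have h23 : (2 : Fin (1 + 3)) ≠ 3 := by decide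
  have hbase : CL σ (emS (tr h23 (1 : F))) (emS (tr (one_ne_zero' (k := 1)) (1 : F))) := by
    have hb : tr h23 (1 : F) ∈ Blk F 1 := tr_mem_blk h23 (by decide) (by decide) 1
    have htrule := em_eqs (F := F) (k := 1) (fun _ => 1) (fun _ => 1) 1 (fun _ => one_mem _) 11
    replace htrule : emL T' * (emS (tr zero_ne_one' 1) * (emS (wsw F 1) * emL (X' 1) * (emS (wsw F 1))⁻¹) *
        (emS (tr zero_ne_one' 1))⁻¹ * (emS (wsw F 1) * emL (X' 1) * (emS (wsw F 1))⁻¹)⁻¹ * (emL (X' 1))⁻¹) *
        (emL (T' : Matrix.SpecialLinearGroup (Fin 2) F))⁻¹ = emS (tr one_ne_zero' 1) := mul_inv_eq_one.1 htrule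
    rw [XV_eq wsw_spec.1] at htrule
    rw [← htrule]
    refine CL.conj_right hs hc (em_stab hb T').symm (CL.mul hs hc ?_ (CL.inv hs hc ?_))
    · refine CL.comm hs hc ?_ ?_
      · exact (tr_commute h23 zero_ne_one' (by decide) (by decide) 1 1).map emS
      · show _ * _ = _
        rw [← mul_inv_eq_iff_eq_mul, XV_conj _ (E_ne 1), tr_mulVec]
        simp [E, (by decide : (3 : Fin (1 + 3)) ≠ 1)]
    · exact (cl_blk hs hc hk' (X' 1) hb).symm
  obtain ⟨σ', s2, s3, s1, s0⟩ : ∃ σ' : Perm (Fin (1 + 3)), σ' 2 = a ∧ σ' 3 = b ∧ σ' 1 = c ∧ σ' 0 = d := by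
    let f : Fin (1 + 3) → Fin (1 + 3) := ![d, c, a, b]
    have hf : Function.Injective f := by
      intro x y h
      fin_cases x <;> fin_cases y <;> simp_all [f, eq_comm]
    exact ⟨Equiv.ofBijective f (Finite.injective_iff_bijective.1 hf), rfl, rfl, rfl, rfl⟩
  obtain ⟨M, e, he, hM, hMz, hMz'⟩ := exists_mono σ' 0 (fun _ => (1 : F)) (fun _ => one_ne_zero)
  have he1 : e = 1 := by
    classical
    by_contra h
    have := Finset.card_le_univ ({0, 1, e} : Finset F)
    rw [Finset.card_insert_of_notMem (by simp [Ne.symm he]), Finset.card_pair (Ne.symm h)] at this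
    omega
  subst he1
  obtain ⟨a2, -⟩ := hM 2 (by decide)
  obtain ⟨-, a3⟩ := hM 3 (by decide)
  obtain ⟨a1, -⟩ := hM 1 (by decide)
  rw [s2] at a2; rw [s3] at a3; rw [s1] at a1; rw [s0] at hMz'
  have e1 := conj_tr M h23 hab (1 : F) 1 1 a2 a3 one_ne_zero
  have e2 := conj_tr M (one_ne_zero' (k := 1)) hcd (1 : F) 1 1 a1 hMz' one_ne_zero
  rw [inv_one, mul_one, mul_one] at e1 e2
  have := CL.conj hs hc (emS M) hbase
  rwa [← map_inv, ← map_mul, ← map_mul, ← map_mul, ← map_mul, e1, e2] at this

theorem exists_tauA (h3 : k = 0 → 3 ≤ Fintype.card F) :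
    ∃ τ : SL F k →* E', ∀ g, σ (τ g) = emS g := by
  classical
  let P : Subgroup (SL F k × E') := (emS.comp (MonoidHom.fst _ _)).eqLocus (σ.comp (MonoidHom.snd _ _))
  let π : ↥P →* SL F k := (MonoidHom.fst _ _).comp P.subtype
  have hπ : Function.Surjective π := fun g => by
    obtain ⟨e, he⟩ := hs (emS g)
    exact ⟨⟨(g, e), he.symm⟩, rfl⟩
  have hPmem : ∀ p : ↥P, emS p.1.1 = σ p.1.2 := fun p => p.2
  have hπc : π.ker ≤ Subgroup.center ↥P := fun p hp => by
    have h1 : p.1.1 = 1 := hp
    refine Subgroup.mem_center_iff.2 fun y => Subtype.ext (Prod.ext ?_ ?_)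
    · show y.1.1 * p.1.1 = p.1.1 * y.1.1
      rw [h1, mul_one, one_mul]
    · exact (cker hc (by rw [← hPmem p, h1, map_one]) y.1.2).symm
  by_cases hex : (k = 0 → Fintype.card F ≠ 2 ∧ Fintype.card F ≠ 4) ∧ (k = 1 → Fintype.card F ≠ 2)
  · obtain ⟨τ, hτ⟩ := SchurMult.exists_section_of_trivial
      (Cfsg.Agent.Lib.Classical.SL_commutator_eq_top (by rw [Fintype.card_fin]; omega))
      (SchurMult.SLn.hasTrivial (by omega) (fun h => hex.1 (by omega)) (fun h => hex.2 (by omega))) π hπ hπc
    refine ⟨(MonoidHom.snd _ _).comp (P.subtype.comp τ), fun g => ?_⟩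
    have h1 : (τ g).1.1 = g := DFunLike.congr_fun hτ g
    show σ (τ g).1.2 = _
    rw [← hPmem, h1]
  -- the two exceptional cases
  have hex' : (k = 0 ∧ Fintype.card F = 4) ∨ (k = 1 ∧ Fintype.card F = 2) := by
    rcases Nat.lt_or_ge k 2 with hk | hk
    · rcases (by omega : k = 0 ∨ k = 1) with rfl | rfl
      · refine Or.inl ⟨rfl, ?_⟩
        by_contra h
        exact hex ⟨fun _ => ⟨by have := h3 rfl; omega, h⟩, fun h' => absurd h' (by omega)⟩
      · refine Or.inr ⟨rfl, ?_⟩
        by_contra h
        exact hex ⟨fun h' => absurd h' (by omega), fun _ => h⟩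
    · exact absurd ⟨fun h => absurd h (by omega), fun h => absurd h (by omega)⟩ hex
  obtain ⟨e, he⟩ := Cfsg.Agent.S2401.result (K := F) (k + 3) (by omega)
  let X : Steinberg (Fin (k + 3)) F (Sp F k) :=
    { x := fun i j t => if h : i ≠ j then emS (tr h t) else 1
      add := fun {i j} hij t u => by simp only [dif_pos hij]; rw [← map_mul, tr_add]
      comm := fun {i j a b} hij hab hib hja t u => by
        simp only [dif_pos hij, dif_pos hab]
        exact ((tr_commute hij hab hib hja t u).map emS).eq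
      chain := fun {i j l} hij hjl hil t u => by
        simp only [dif_pos hij, dif_pos hjl, dif_pos hil]
        rw [← commutatorElement_def, ← map_commutatorElement, tr_chain hij hjl hil t u]
      three := fun i j => by
        obtain ⟨z, h1, h2⟩ := exists_third i j
        exact ⟨z, h1, h2⟩ }
  have hX : ∀ {i j} (h : i ≠ j) t, X.x i j t = emS (tr h t) := fun h t => dif_pos h
  have hcom : ∀ {i j a b : Fin (k + 3)}, i ≠ j → a ≠ b → i ≠ b → j ≠ a → ∀ {p q : E'} {t u : F},
      σ p = X.x i j t → σ q = X.x a b u → Commute p q := by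
    intro i j a b hij hab hib hja p q t u hp hq
    by_cases hm : ∃ m, m ≠ a ∧ m ≠ b ∧ m ≠ i ∧ m ≠ j
    · obtain ⟨m, m1, m2, m3, m4⟩ := hm
      exact X.commute_of_split hs hc hij hab hib hja m1 m2 m3 m4 hp hq
    rw [hX hij] at hp
    rw [hX hab] at hq
    suffices CL σ (emS (tr hij t)) (emS (tr hab u)) from this p q hp hq
    push Not at hm
    rcases hex' with ⟨hk, hq'⟩ | ⟨hk, hq'⟩
    · -- scale with a torus
      subst hk
      obtain ⟨r, hr0, hr1⟩ := exists_ne_zero_one (F := F) (by omega)
      have hd : ∀ (d : Fin (0 + 3) → Fˣ) {i j a b : Fin (0 + 3)} (hij : i ≠ j) (hab : a ≠ b) (hib : i ≠ b)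
          (hja : j ≠ a), (d a : F) * (d b : F)⁻¹ = 1 → (d i : F) * (d j : F)⁻¹ = r → ∀ t u,
            CL σ (emS (tr hij t)) (emS (tr hab u)) := by
        intro d i j a b hij hab hib hja h1 h2 t u
        refine CL.symm ?_
        have e : emS (tr hij t) = ⁅tor d, emS (tr hij (t / (r - 1)))⁆ := by
          rw [commutatorElement_def, tor_emS_mul, mul_inv_cancel_right,
            show (d i : F) * (t / (r - 1)) * (d j : F)⁻¹ = r * (t / (r - 1)) by rw [← h2]; ring,
            ← map_inv, ← map_mul, show (tr hij (t / (r - 1)) : SL F 0)⁻¹ = tr hij (-(t / (r - 1))) from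
              inv_eq_of_mul_eq_one_right (by rw [← tr_add, add_neg_cancel, tr_zero]), ← tr_add]
          congr 2
          field_simp [sub_ne_zero.2 hr1]
          ring
        rw [e]
        refine CL.comm hs hc ?_ ((tr_commute hab hij hja.symm hib.symm u _).map emS)
        show _ * _ = _
        rw [tor_emS_mul, show (d a : F) * u * (d b : F)⁻¹ = u by rw [mul_right_comm, h1, one_mul]]
      by_cases hki : i = a
      · subst hki
        by_cases hjb : j = b
        · subst hjb
          obtain ⟨z, z1, z2⟩ := exists_third i j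
          exact absurd (hm z z1 z2 z1) z2
        · exact hd (Function.update (fun _ => 1) j (Units.mk0 r hr0)⁻¹) hij hab hib hja
            (by simp [Function.update_of_ne hij, Function.update_of_ne (Ne.symm hjb)])
            (by simp [Function.update_of_ne hij]) t u
      · by_cases hjb : j = b
        · subst hjb
          exact hd (Function.update (fun _ => 1) i (Units.mk0 r hr0)) hij hab hib hja
            (by simp [Function.update_of_ne (Ne.symm hki), Function.update_of_ne hij.symm])
            (by simp [Function.update_of_ne hij.symm]) t u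
        · have := Finset.card_le_univ ({i, j, a, b} : Finset (Fin (0 + 3)))
          rw [Finset.card_insert_of_notMem (by simp [hij, hki, hib]),
            Finset.card_insert_of_notMem (by simp [hja, hjb]), Finset.card_pair hab, Fintype.card_fin] at this
          omega
    · subst hk
      have h01 : ∀ x : F, x = 0 ∨ x = 1 := fun x => by
        by_contra h
        push Not at h
        have := Finset.card_le_univ ({0, 1, x} : Finset F)
        rw [Finset.card_insert_of_notMem (by simp [Ne.symm h.1]), Finset.card_pair (Ne.symm h.2)] at this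
        omega
      rcases h01 t with rfl | rfl
      · rw [tr_zero, map_one]; exact (CL.one hc _).symm
      rcases h01 u with rfl | rfl
      · rw [tr_zero, map_one]; exact CL.one hc _
      by_cases hki : i = a
      · obtain ⟨z, z1, z2, z3⟩ := exists_four (k := 1) le_rfl i j b
        exact absurd (hm z (hki ▸ z1) z3 z1) z2
      by_cases hjb : j = b
      · obtain ⟨z, z1, z2, z3⟩ := exists_four (k := 1) le_rfl i j a
        exact absurd (hm z z3 (hjb ▸ z2) z1) z2
      exact cl_disjoint hs hc rfl hq' hij hab hki hib hja hjb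
  let D : Fin (k + 3) → F → Sp F k := fun j a => tor (Function.update (fun _ => 1) j
    (if h : a = 0 then 1 else Units.mk0 a h))
  obtain ⟨Y, hY⟩ := X.exists_lift_of hs hc hcom D
    (fun _ j a ha i l hil t => by
      rw [hX hil, hX hil, tor_emS_mul, mul_inv_cancel_right, dif_neg ha]
      refine congrArg (fun x => emS (tr hil x)) ?_
      simp only [Function.update_apply]
      split_ifs <;> simp_all)
    (fun _ i j a b => tor_commute _ _)
    (fun h => exists_ne_zero_one (h3 (by rw [Fintype.card_fin] at h; omega)))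
  let f : {ij : Fin (k + 3) × Fin (k + 3) // ij.1 ≠ ij.2} × F → E' := fun p => Y.x p.1.1.1 p.1.1.2 p.2
  refine ⟨(PresentedGroup.toGroup (f := f) ?_).comp e.symm.toMonoidHom, fun g => ?_⟩
  · rintro r ((⟨a, t, u, rfl⟩ | ⟨a, b, t, u, h1, h2, rfl⟩) | ⟨a, b, h, t, u, hab, rfl⟩)
    · simp only [map_mul, map_inv, FreeGroup.lift_apply_of, f]
      rw [Y.add a.2, mul_inv_cancel]
    · simp only [map_mul, map_inv, FreeGroup.lift_apply_of, f]
      rw [Y.comm a.2 b.2 h1 h2, mul_inv_cancel_right, mul_inv_cancel]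
    · simp only [map_mul, map_inv, FreeGroup.lift_apply_of, f]
      obtain ⟨⟨i, j⟩, hij⟩ := a
      obtain ⟨⟨i', j'⟩, hkl⟩ := b
      simp only at hab h hij hkl ⊢
      subst hab
      rw [Y.chain hij hkl h, mul_inv_cancel]
  · obtain ⟨x, rfl⟩ := e.surjective g
    rw [MonoidHom.comp_apply, MulEquiv.coe_toMonoidHom, MulEquiv.symm_apply_apply]
    refine DFunLike.congr_fun (f := σ.comp (PresentedGroup.toGroup _)) (g := emS.comp e.toMonoidHom)
      (PresentedGroup.ext fun p => ?_) x
    rw [MonoidHom.comp_apply, PresentedGroup.toGroup.of, MonoidHom.comp_apply, MulEquiv.coe_toMonoidHom]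
    refine (hY _ _ p.1.2 p.2).trans ?_
    rw [hX p.1.2]
    exact congrArg emS (Subtype.ext (he p.1 p.2).symm)

end Cfsg.Agent.Lib.PSpMult
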