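import Cfsg.Agent.Lib.PSpMult.SLTwo
import Cfsg.Agent.Lib.PSpMult.TauA
import Cfsg.Agent.Lib.BoundedPres.SpMain
import Cfsg.Agent.Lib.SteinbergPres.Cover.Mult

/-!
The symplectic group in dimension at least six has trivial multiplier.
-/

set_option autoImplicit false
set_option maxHeartbeats 4000000

namespace Cfsg.Agent.Lib.PSpMult

open Equiv Matrix Cfsg.Agent.Lib.GLn Cfsg.Agent.Lib.SLTwoPres.Core Cfsg.Agent.Lib.Classical Cfsg.Agent.Lib.Forms
open Cfsg.Agent.Lib.BoundedPres.Sp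
open scoped commutatorElement

universe u

variable {F : Type u} [Field F] [Fintype F] {k : ℕ} {E' : Type u} [Group E'] [Finite E'] {σ : E' →* Sp F k}
  (hs : Function.Surjective σ) (hc : σ.ker ≤ Subgroup.center E')

theorem un_eq (t : F) : SchurMult.SLTwo.un t = X' t := Subtype.ext (by
  ext i j; fin_cases i <;> fin_cases j <;> simp [SchurMult.SLTwo.un, X'])

theorem upB_pow (S : Matrix (Fin (k + 3)) (Fin (k + 3)) F) (x : Sp F k)
    (h : smat x = upB (Multiplicative.ofAdd S)) : x ^ Fintype.card F = 1 := by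
  refine Subtype.ext ?_
  rw [SubmonoidClass.coe_pow]
  change smat x ^ Fintype.card F = 1
  rw [h, ← map_pow, ← ofAdd_nsmul, show Fintype.card F • S = 0 by
    ext a b; simp [FiniteField.cast_card_eq_zero F], ofAdd_zero, map_one]

section Alg

variable {A : Type*} [CommGroup A]

theorem radd_alg (a0 a1 a2 a01 a02 a12 a012 z : A)
    (hz : a01 * a02 * a12 * (a012 * a1 * a2)⁻¹ = a0 * z) :
    a012 * z * (a0 * z) * (a1 * z) * (a2 * z) = a01 * z * (a02 * z) * (a12 * z) := by
  rw [← hz]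
  apply (Additive.ofMul (α := A)).injective
  simp only [ofMul_mul, ofMul_inv]
  abel

theorem e0_alg (a1 a2 a01 a02 a12 a012 : A) :
    a01 * a02 * a12 * (a012 * a1 * a2)⁻¹ =
      a01 * a1⁻¹ * (a012 * a1⁻¹ * a02⁻¹ * (a12 * a1⁻¹ * a2⁻¹)⁻¹)⁻¹ := by
  apply (Additive.ofMul (α := A)).injective
  simp only [ofMul_mul, ofMul_inv]
  abel

theorem delta_alg (a b c d e f g a' b' c' d' e' f' g' : A) :
    a * a' * (b * b') * (c * c') * (d * d') * (e * e' * (f * f') * (g * g'))⁻¹ =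
      a * b * c * d * (e * f * g)⁻¹ * (a' * b' * c' * d' * (e' * f' * g')⁻¹) := by
  apply (Additive.ofMul (α := A)).injective
  simp only [ofMul_mul, ofMul_inv]
  abel

theorem u_alg (a0 a1 a2 a01 a02 a12 a012 : A) (h : a012 * a0 * a1 * a2 = a01 * a02 * a12) :
    a012 * a0⁻¹ * a12⁻¹ * (a02 * a0⁻¹ * a2⁻¹)⁻¹ = a01 * a1⁻¹ * a0⁻¹ := by
  rw [show a01 = a012 * a0 * a1 * a2 * (a02 * a12)⁻¹ by rw [h, mul_assoc a01, mul_inv_cancel_right]]
  apply (Additive.ofMul (α := A)).injective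
  simp only [ofMul_mul, ofMul_inv]
  abel

end Alg

include hs hc

theorem exists_section (hk : k = 0 → 3 ≤ Fintype.card F) :
    ∃ τ : Sp F k →* E', σ.comp τ = MonoidHom.id _ := by
  classical
  obtain ⟨a, ha⟩ := exists_tauA hs hc hk
  -- lifts of long root elements
  obtain ⟨L0, hL0⟩ : ∃ L : F → E', ∀ t, σ (L t) = emL (X' t) := ⟨fun t => (hs (emL (X' t))).choose,
    fun t => (hs (emL (X' t))).choose_spec⟩
  let R : (Fin (k + 3) → F) → E' := fun v => a (col v) * L0 1 * (a (col v))⁻¹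
  have hR : ∀ v, σ (R v) = XV v 1 := fun v => by
    simp only [R, map_mul, map_inv, ha, hL0]; rfl
  have hRc : ∀ v w, v ≠ 0 → w ≠ 0 → Commute (R v) (R w) := fun v w hv hw =>
    cl_XV_XV hs hc hk 1 1 hv hw _ _ (hR v) (hR w)
  -- independence of the representative
  have hwd : ∀ (x : E') (t : F), σ x = emL (X' t) → ∀ g g' : SL F k, mat g *ᵥ E 0 = mat g' *ᵥ E 0 →
      a g * x * (a g)⁻¹ = a g' * x * (a g')⁻¹ := by
    intro x t hx g g' e
    have hst : mat (g⁻¹ * g') *ᵥ E 0 = E 0 := by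
      rw [BoundedPres.Sp.mul_mulVec', ← e, ← BoundedPres.Sp.mul_mulVec', inv_mul_cancel, one_mulVec'']
    have h : Commute x (a (g⁻¹ * g')) := cl_stab hs hc hk hst t _ _ hx (ha _)
    calc a g * x * (a g)⁻¹ = a g * (x * a (g⁻¹ * g')) * (a (g⁻¹ * g'))⁻¹ * (a g)⁻¹ := by group
      _ = _ := by rw [h.eq, map_mul, map_inv]; group
  have hRconj : ∀ g v, v ≠ 0 → a g * R v * (a g)⁻¹ = R (mat g *ᵥ v) := by
    intro g v hv
    simp only [R]
    rw [← hwd (L0 1) 1 (hL0 1) (g * col v) (col (mat g *ᵥ v))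
      (by rw [BoundedPres.Sp.mul_mulVec', col_spec hv, col_spec (mulVec_ne g hv)]), map_mul]
    group
  -- a lift of order `p`
  let e0 : E' := R (E 0 + E 1) * R (E 0 + E 2) * R (E 1 + E 2) * (R (E 0 + E 1 + E 2) * R (E 1) * R (E 2))⁻¹
  have n01 := sum01_ne (F := F) (k := k)
  have n02 := sum02_ne (F := F) (k := k)
  have n12 := sum12_ne (F := F) (k := k)
  have n012 := sum012_ne (F := F) (k := k)
  have c0102 := hRc _ _ n01 n02
  let Y : E' := ⁅a (tr zero_ne_one' 1), R (E 1)⁆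
  let V : E' := R (E 1 + E 2) * (R (E 1))⁻¹ * (R (E 2))⁻¹
  let W : E' := ⁅a (tr two_ne_zero''.symm 1), V⁆
  have t01 : ∀ v, mat (tr (zero_ne_one' (k := k)) (1 : F)) *ᵥ v = v + v 1 • E 0 := fun v => by
    rw [tr_mulVec, one_mul]
  have t02 : ∀ v, mat (tr (two_ne_zero'' (k := k)).symm (1 : F)) *ᵥ v = v + v 2 • E 0 := fun v => by
    rw [tr_mulVec, one_mul]
  have p12 : (1 : Fin (k + 3)) ≠ 2 := two_ne_one''.symm
  have hY : Y = R (E 0 + E 1) * (R (E 1))⁻¹ := by
    simp only [Y, commutatorElement_def]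
    rw [hRconj _ _ (E_ne 1), t01]
    simp [E, add_comm]
  have hW : W = R (E 0 + E 1 + E 2) * (R (E 1))⁻¹ * (R (E 0 + E 2))⁻¹ * V⁻¹ := by
    have h1 : a (tr two_ne_zero''.symm (1 : F)) * V * (a (tr two_ne_zero''.symm 1))⁻¹ =
        R (E 0 + E 1 + E 2) * (R (E 1))⁻¹ * (R (E 0 + E 2))⁻¹ := by
      rw [show a (tr two_ne_zero''.symm (1 : F)) * V * (a (tr two_ne_zero''.symm 1))⁻¹ =
        (a (tr two_ne_zero''.symm 1) * R (E 1 + E 2) * (a (tr two_ne_zero''.symm 1))⁻¹) *
          (a (tr two_ne_zero''.symm 1) * R (E 1) * (a (tr two_ne_zero''.symm 1))⁻¹)⁻¹ *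
          (a (tr two_ne_zero''.symm 1) * R (E 2) * (a (tr two_ne_zero''.symm 1))⁻¹)⁻¹ by simp only [V]; group,
        hRconj _ _ n12, hRconj _ _ (E_ne 1), hRconj _ _ (E_ne 2), t02, t02, t02]
      have a2 : (E 1 + E 2 : Fin (k + 3) → F) 2 = 1 := by simp [E, p12.symm]
      have b2 : (E 1 : Fin (k + 3) → F) 2 = 0 := by simp [E, p12.symm]
      have c2 : (E 2 : Fin (k + 3) → F) 2 = 1 := by simp [E]
      rw [a2, b2, c2, one_smul, zero_smul, add_zero, add_comm (E 2) (E 0), add_comm (E 1 + E 2) (E 0), ← add_assoc]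
    simp only [W, commutatorElement_def]
    rw [h1]
  -- everything happens in an abelian subgroup
  let S : Set E' := {x | ∃ v, v ≠ 0 ∧ x = R v}
  let A : Subgroup E' := Subgroup.closure S
  have hA : ∀ v, v ≠ 0 → R v ∈ A := fun v hv => Subgroup.subset_closure ⟨v, hv, rfl⟩
  have hAc : ∀ x ∈ A, ∀ y ∈ A, x * y = y * x := by
    intro x hx y hy
    refine (Subgroup.isMulCommutative_closure (k := S) ?_).is_comm.comm (⟨x, hx⟩ : A) ⟨y, hy⟩ |> congrArg Subtype.val
    rintro _ ⟨v, hv, rfl⟩ _ ⟨w, hw, rfl⟩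
    exact (hRc v w hv hw).eq
  letI : CommGroup ↥A := { (inferInstance : Group ↥A) with
    mul_comm := fun x y => Subtype.ext (hAc _ x.2 _ y.2) }
  have hpow : ∀ (g c : E'), Commute (g * c * g⁻¹) c → σ c ^ Fintype.card F = 1 → ⁅g, c⁆ ^ Fintype.card F = 1 := by
    intro g c h hp
    rw [commutatorElement_def, h.inv_right.mul_pow, conj_pow, inv_pow,
      show g * c ^ Fintype.card F * g⁻¹ = c ^ Fintype.card F by
        rw [← cker hc (show σ (c ^ Fintype.card F) = 1 by rw [map_pow, hp]) g, mul_inv_cancel_right], mul_inv_cancel]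
  have hVA : V ∈ A := mul_mem (mul_mem (hA _ n12) (inv_mem (hA _ (E_ne 1)))) (inv_mem (hA _ (E_ne 2)))
  have hYp : Y ^ Fintype.card F = 1 := by
    refine hpow _ _ ?_ ?_
    · rw [hRconj _ _ (E_ne 1)]; exact hRc _ _ (mulVec_ne _ (E_ne 1)) (E_ne 1)
    · exact upB_pow _ _ (by rw [hR, XV_mat (E_ne 1)])
  have hWp : W ^ Fintype.card F = 1 := by
    refine hpow _ _ ?_ ?_
    · refine hAc _ ?_ _ hVA
      simp only [V]
      rw [← conj_mul, ← conj_mul, ← conj_inv, ← conj_inv, hRconj _ _ n12, hRconj _ _ (E_ne 1), hRconj _ _ (E_ne 2)]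
      exact mul_mem (mul_mem (hA _ (mulVec_ne _ n12)) (inv_mem (hA _ (mulVec_ne _ (E_ne 1)))))
        (inv_mem (hA _ (mulVec_ne _ (E_ne 2))))
    · simp only [V, map_mul, map_inv, hR]
      have hm : ∀ v w : Fin (k + 3) → F, v ≠ 0 → w ≠ 0 → Commute (XV v 1) (XV w 1) := fun v w hv hw => XV_commute hv hw 1 1
      rw [Commute.mul_pow, Commute.mul_pow, inv_pow, inv_pow, upB_pow _ _ (XV_mat n12 1),
        upB_pow _ _ (XV_mat (E_ne 1) 1), upB_pow _ _ (XV_mat (E_ne 2) 1)]
      · simp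
      · exact (hm _ _ n12 (E_ne 1)).inv_right
      · exact Commute.mul_left (hm _ _ n12 (E_ne 2)).inv_right (hm _ _ (E_ne 1) (E_ne 2)).inv_left.inv_right
  let r : (v : Fin (k + 3) → F) → v ≠ 0 → ↥A := fun v hv => ⟨R v, hA v hv⟩
  have he0 : e0 = Y * W⁻¹ := by
    rw [hY, hW]
    have := e0_alg (r _ (E_ne 1)) (r _ (E_ne 2)) (r _ n01) (r _ n02) (r _ n12) (r _ n012)
    exact congrArg Subtype.val this
  have hWA : W ∈ A := by
    rw [hW]; exact mul_mem (mul_mem (mul_mem (hA _ n012) (inv_mem (hA _ (E_ne 1)))) (inv_mem (hA _ n02))) (inv_mem hVA)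
  have hYA : Y ∈ A := by rw [hY]; exact mul_mem (hA _ n01) (inv_mem (hA _ (E_ne 1)))
  have he0p : e0 ^ Fintype.card F = 1 := by
    rw [he0, (show Commute Y W⁻¹ from hAc _ hYA _ (inv_mem hWA)).mul_pow, inv_pow, hYp, hWp, inv_one, mul_one]
  have hσe0 : σ e0 = emL (X' 1) := by
    refine Subtype.ext ?_
    show smat _ = smat _
    have hinv : ∀ (x : Sp F k) S, smat x = upB (Multiplicative.ofAdd S) → smat x⁻¹ = upB (Multiplicative.ofAdd (-S)) := by
      intro x S h
      have h1 : upB (Multiplicative.ofAdd (-S)) * smat x = 1 := by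
        rw [h, ← upB.map_mul, ← ofAdd_add, neg_add_cancel, ofAdd_zero, map_one]
      calc smat x⁻¹ = upB (Multiplicative.ofAdd (-S)) * smat x * smat x⁻¹ := by rw [h1, one_mul]
        _ = _ := by rw [Matrix.mul_assoc, ← smat_mul, mul_inv_cancel]; exact mul_one _
    simp only [e0, map_mul, map_inv, hR, _root_.mul_inv_rev, smat_mul, XV_mat n01, XV_mat n02, XV_mat n12,
      hinv _ _ (XV_mat n012 1), hinv _ _ (XV_mat (E_ne 1) 1), hinv _ _ (XV_mat (E_ne 2) 1), emL_X, ← upB.map_mul,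
      ← ofAdd_add]
    refine congrArg (fun S => upB (Multiplicative.ofAdd S)) ?_
    ext u w
    simp only [Matrix.add_apply, Matrix.neg_apply, Matrix.smul_apply, vecMulVec_apply, Pi.add_apply, smul_eq_mul]
    ring
  -- the lift of the long root `SL₂`
  let P : Subgroup (Matrix.SpecialLinearGroup (Fin 2) F × E') :=
    ((emL (k := k)).comp (MonoidHom.fst _ _)).eqLocus (σ.comp (MonoidHom.snd _ _))
  have hPmem : ∀ p : ↥P, emL (k := k) p.1.1 = σ p.1.2 := fun p => p.2
  let π : ↥P →* Matrix.SpecialLinearGroup (Fin 2) F := (MonoidHom.fst _ _).comp P.subtype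
  have hπ : Function.Surjective π := fun g => by
    obtain ⟨e, he⟩ := hs (emL g)
    exact ⟨⟨(g, e), he.symm⟩, rfl⟩
  have hπc : π.ker ≤ Subgroup.center ↥P := fun p hp => by
    have h1 : p.1.1 = 1 := hp
    refine Subgroup.mem_center_iff.2 fun y => Subtype.ext (Prod.ext ?_ ?_)
    · show y.1.1 * p.1.1 = p.1.1 * y.1.1
      rw [h1, mul_one, one_mul]
    · exact (cker hc (by rw [← hPmem p, h1, map_one]) y.1.2).symm
  have habel : ∀ s t, CL π (SchurMult.SLTwo.un s) (SchurMult.SLTwo.un t) := by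
    intro s t p q hp hq
    refine Subtype.ext (Prod.ext ?_ ?_)
    · show p.1.1 * q.1.1 = q.1.1 * p.1.1
      rw [show p.1.1 = _ from hp, show q.1.1 = _ from hq, SchurMult.SLTwo.un_mul, SchurMult.SLTwo.un_mul, add_comm]
    · exact cl_self hs hc hk s t _ _ (by rw [← hPmem p, show p.1.1 = _ from hp, un_eq])
        (by rw [← hPmem q, show q.1.1 = _ from hq, un_eq])
  obtain ⟨τ, hτ, hτe⟩ := exists_section_SLTwo hπ hπc habel ⟨(X' 1, e0), hσe0.symm⟩ (un_eq (1 : F)).symm
    (fun h3 => Subtype.ext (Prod.ext (by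
      show (X' (1 : F)) ^ Fintype.card F = 1
      have : ∀ n : ℕ, (X' (1 : F)) ^ n = X' (n : F) := fun n => by
        induction n with
        | zero => rw [pow_zero, Nat.cast_zero, X'_zero]
        | succ n ih => rw [pow_succ, ih, Nat.cast_succ, X'_add]
      rw [this, FiniteField.cast_card_eq_zero, X'_zero]) he0p))
  let b : Matrix.SpecialLinearGroup (Fin 2) F →* E' := (MonoidHom.snd _ _).comp (P.subtype.comp τ)
  have hb : ∀ y, σ (b y) = emL y := fun y => by
    have h1 : (τ y).1.1 = y := DFunLike.congr_fun hτ y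
    show σ (τ y).1.2 = _
    rw [← hPmem, h1]
  have hbe : Fintype.card F ≤ 3 → b (X' 1) = e0 := fun h => by
    show (τ (X' 1)).1.2 = _
    rw [← un_eq, hτe h]
  -- the relations
  obtain ⟨ω, hωo⟩ := Cfsg.Agent.Lib.SLTwoPres.Final.exists_generator F
  have hω : ∀ s : Fˣ, ∃ n : ℕ, ω ^ n = s := Cfsg.Agent.Lib.SLTwoPres.Main.card_eq ω hωo
  have hperf : commutator (SL F k) = ⊤ :=
    Cfsg.Agent.Lib.Classical.SL_commutator_eq_top (by rw [Fintype.card_fin]; omega)
  have hscale : ∀ g, b (H' ω) * a g * (b (H' ω))⁻¹ = a (dc ω g) := fun g =>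
    DFunLike.congr_fun (hom_unique hc hperf (f := (MulAut.conj (b (H' ω))).toMonoidHom.comp a) (g := a.comp (dc ω))
      fun g => by
        show σ (b (H' ω) * a g * (b (H' ω))⁻¹) = σ (a (dc ω g))
        rw [map_mul, map_mul, map_inv, hb, ha, ha, em_scale]) g
  have hsc01 : b (H' ω) * a (tr zero_ne_one' 1) * (b (H' ω))⁻¹ = a (tr zero_ne_one' (ω : F)) := by
    rw [hscale, dc_tr]; congr 2; simp [dlt]
  have hsc10 : b (H' ω) * a (tr one_ne_zero' 1) * (b (H' ω))⁻¹ = a (tr one_ne_zero' ((ω⁻¹ : Fˣ) : F)) := by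
    rw [hscale, dc_tr]; congr 2; simp [dlt]
  -- long root elements through `b`
  let Rt : (Fin (k + 3) → F) → F → E' := fun v t => a (col v) * b (X' t) * (a (col v))⁻¹
  have hRtσ : ∀ v t, σ (Rt v t) = XV v t := fun v t => by
    simp only [Rt, map_mul, map_inv, ha, hb]; rfl
  have hRtc : ∀ v w t t', v ≠ 0 → w ≠ 0 → Commute (Rt v t) (Rt w t') := fun v w t t' hv hw =>
    cl_XV_XV hs hc hk t t' hv hw _ _ (hRtσ v t) (hRtσ w t')
  have hRte : ∀ {v} (g : SL F k), mat g *ᵥ E 0 = v → ∀ t, a g * b (X' t) * (a g)⁻¹ = Rt v t := fun {v} g hg t =>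
    hwd _ t (hb _) g (col v) (by rw [hg, col_spec (by rw [← hg]; exact mulVec_ne g (E_ne 0))])
  have hRtconj : ∀ g v t, v ≠ 0 → a g * Rt v t * (a g)⁻¹ = Rt (mat g *ᵥ v) t := by
    intro g v t hv
    rw [← hRte (v := mat g *ᵥ v) (g * col v) (by rw [BoundedPres.Sp.mul_mulVec', col_spec hv]) t, map_mul]
    simp only [Rt]; group
  have hR0 : ∀ t, Rt (E 0) t = b (X' t) := fun t => by
    rw [← hRte 1 (one_mulVec'' _), map_one, one_mul, inv_one, mul_one]
  have hRadd : ∀ v s t, Rt v (s + t) = Rt v s * Rt v t := fun v s t => by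
    simp only [Rt, X'_add, map_mul]; group
  have hradd : Rt (E 0 + E 1 + E 2) 1 * Rt (E 0) 1 * Rt (E 1) 1 * Rt (E 2) 1 =
      Rt (E 0 + E 1) 1 * Rt (E 0 + E 2) 1 * Rt (E 1 + E 2) 1 := by
    by_cases h3 : Fintype.card F ≤ 3
    · -- all differ from `R` by one central element
      have hz : σ ((L0 1)⁻¹ * e0) = 1 := by rw [map_mul, map_inv, hL0, hσe0, inv_mul_cancel]
      set z := (L0 1)⁻¹ * e0 with hzdef
      have hzc := cker hc hz
      have hval : ∀ v, Rt v 1 = R v * z := fun v => by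
        simp only [Rt, R, hbe h3]
        rw [show e0 = L0 1 * z by rw [hzdef]; group]
        calc a (col v) * (L0 1 * z) * (a (col v))⁻¹ = a (col v) * L0 1 * (z * (a (col v))⁻¹) := by group
          _ = _ := by rw [hzc]; group
      have hR00 : R (E 0) = L0 1 := by
        show a (col (E 0)) * L0 1 * (a (col (E 0)))⁻¹ = _
        rw [hwd _ 1 (hL0 1) (col (E 0)) 1 (by rw [col_spec (E_ne 0), one_mulVec'']), map_one, one_mul, inv_one, mul_one]
      simp only [hval]
      have key : e0 = R (E 0) * z := by rw [hR00, hzdef]; group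
      have hzA : z ∈ A := by
        rw [show z = (R (E 0))⁻¹ * e0 by rw [key]; group, he0]
        exact mul_mem (inv_mem (hA _ (E_ne 0))) (mul_mem hYA (inv_mem hWA))
      exact congrArg Subtype.val (radd_alg (r _ (E_ne 0)) (r _ (E_ne 1)) (r _ (E_ne 2)) (r _ n01) (r _ n02)
        (r _ n12) (r _ n012) ⟨z, hzA⟩ (Subtype.ext key))
    · -- a scalar torus element
      obtain ⟨α, hα0, hα1⟩ : ∃ α : F, α ≠ 0 ∧ α * α ≠ 1 := by
        by_contra h
        push Not at h
        have hsub : (Finset.univ : Finset F) ⊆ {0, 1, -1} := fun x _ => by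
          simp only [Finset.mem_insert, Finset.mem_singleton]
          by_cases hx : x = 0
          · exact Or.inl hx
          · exact Or.inr (mul_self_eq_one_iff.1 (h x hx))
        have := (Finset.card_le_card hsub).trans Finset.card_le_three
        rw [Finset.card_univ] at this
        omega
      let δ : F → E' := fun t => Rt (E 0 + E 1 + E 2) t * Rt (E 0) t * Rt (E 1) t * Rt (E 2) t *
        (Rt (E 0 + E 1) t * Rt (E 0 + E 2) t * Rt (E 1 + E 2) t)⁻¹
      have hδσ : ∀ t, σ (δ t) = 1 := fun t => by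
        refine Subtype.ext ?_
        show smat _ = 1
        have hinv : ∀ v : Fin (k + 3) → F, v ≠ 0 → smat (XV v t)⁻¹ = upB (Multiplicative.ofAdd (-(t • vecMulVec v v))) := fun v hv => by
          have h1 : upB (Multiplicative.ofAdd (-(t • vecMulVec v v))) * smat (XV v t) = 1 := by
            rw [XV_mat hv, ← upB.map_mul, ← ofAdd_add, neg_add_cancel, ofAdd_zero, map_one]
          calc smat (XV v t)⁻¹ = upB (Multiplicative.ofAdd (-(t • vecMulVec v v))) * smat (XV v t) * smat (XV v t)⁻¹ := by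
                rw [h1, one_mul]
            _ = _ := by rw [Matrix.mul_assoc, ← smat_mul, mul_inv_cancel]; exact mul_one _
        simp only [δ, map_mul, map_inv, hRtσ, _root_.mul_inv_rev, smat_mul, XV_mat n012, XV_mat (E_ne 0),
          XV_mat (E_ne 1), XV_mat (E_ne 2), hinv _ n01, hinv _ n02, hinv _ n12, ← upB.map_mul, ← ofAdd_add]
        rw [← map_one (upB (F := F) (k := k)), ← ofAdd_zero]
        refine congrArg (fun S => upB (Multiplicative.ofAdd S)) ?_
        ext u w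
        simp only [Matrix.add_apply, Matrix.neg_apply, Matrix.smul_apply, vecMulVec_apply, Pi.add_apply,
          smul_eq_mul, Matrix.zero_apply]
        ring
      let T : Subgroup E' := Subgroup.closure {x | ∃ v t, v ≠ 0 ∧ x = Rt v t}
      have hTc : ∀ x ∈ T, ∀ y ∈ T, x * y = y * x := by
        intro x hx y hy
        refine (Subgroup.isMulCommutative_closure ?_).is_comm.comm (⟨x, hx⟩ : T) ⟨y, hy⟩ |> congrArg Subtype.val
        rintro _ ⟨v, t, hv, rfl⟩ _ ⟨w, t', hw, rfl⟩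
        exact (hRtc v w t t' hv hw).eq
      have hTm : ∀ v t, v ≠ 0 → Rt v t ∈ T := fun v t hv => Subgroup.subset_closure ⟨v, t, hv, rfl⟩
      letI : CommGroup ↥T := { (inferInstance : Group ↥T) with
        mul_comm := fun x y => Subtype.ext (hTc _ x.2 _ y.2) }
      let r' : (v : Fin (k + 3) → F) → v ≠ 0 → F → ↥T := fun v hv t => ⟨Rt v t, hTm v t hv⟩
      have hr' : ∀ v hv s t, r' v hv (s + t) = r' v hv s * r' v hv t := fun v hv s t => Subtype.ext (hRadd v s t)
      let δ' : F → ↥T := fun t => r' _ n012 t * r' _ (E_ne 0) t * r' _ (E_ne 1) t * r' _ (E_ne 2) t *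
        (r' _ n01 t * r' _ n02 t * r' _ n12 t)⁻¹
      have hδadd : ∀ s t, δ (s + t) = δ s * δ t := fun s t => by
        have : δ' (s + t) = δ' s * δ' t := by
          simp only [δ', hr']
          exact delta_alg _ _ _ _ _ _ _ _ _ _ _ _ _ _
        exact congrArg Subtype.val this
      obtain ⟨h, hh⟩ := hs (tor fun _ => Units.mk0 α hα0)
      have hha : ∀ g, h * a g * h⁻¹ = a g := fun g =>
        DFunLike.congr_fun (hom_unique hc hperf (f := (MulAut.conj h).toMonoidHom.comp a) (g := a) fun g => by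
          show σ (h * a g * h⁻¹) = σ (a g)
          rw [map_mul, map_mul, map_inv, hh, ha, (tor_const_emS _ g).eq, mul_inv_cancel_right]) g
      have hhb : ∀ t, h * b (X' t) * h⁻¹ = b (X' (α * α * t)) := fun t => by
        have hu := DFunLike.congr_fun (hom_unique hc (Cfsg.Agent.Lib.SchurAlt.sl_perfect (F := F) (by omega))
          (f := (MulAut.conj h).toMonoidHom.comp b)
          (g := b.comp (MulAut.conj (H' (Units.mk0 α hα0))).toMonoidHom) fun y => by
            show σ (h * b y * h⁻¹) = σ (b (H' _ * y * (H' _)⁻¹))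
            rw [map_mul, map_mul, map_inv, hh, hb, hb, tor_emL, mul_inv_cancel_right]) (X' t)
        refine hu.trans ?_
        show b (H' _ * X' t * (H' _)⁻¹) = _
        rw [H'_conj, Units.val_mk0, sq]
      have hhR : ∀ v t, h * Rt v t * h⁻¹ = Rt v (α * α * t) := fun v t => by
        simp only [Rt]
        rw [show h * (a (col v) * b (X' t) * (a (col v))⁻¹) * h⁻¹ =
          (h * a (col v) * h⁻¹) * (h * b (X' t) * h⁻¹) * (h * a (col v) * h⁻¹)⁻¹ by group, hha, hhb]
      have hinv : ∀ t, δ (α * α * t) = δ t := fun t => by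
        have e : h * δ t * h⁻¹ = δ (α * α * t) := by
          simp only [δ]
          simp only [← conj_mul, ← conj_inv, hhR, _root_.mul_inv_rev]
        rw [← e, ← cker hc (hδσ t) h, mul_inv_cancel_right]
      have hz0 : δ 0 = 1 := by
        have := hδadd 0 0
        rwa [add_zero, left_eq_mul] at this
      have h1 := hδadd (α * α * (1 / (α * α - 1))) (-(1 / (α * α - 1)))
      rw [hinv, ← hδadd, add_neg_cancel, hz0, ← sub_eq_add_neg, ← sub_one_mul,
        mul_div_cancel₀ _ (sub_ne_zero.2 hα1)] at h1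
      exact mul_inv_eq_one.1 h1
  have hRt_w : a (wsw F k) * b (X' 1) * (a (wsw F k))⁻¹ = Rt (E 1) 1 := hRte _ wsw_spec.1 1
  have hRtA : ∀ v w, v ≠ 0 → w ≠ 0 → Commute (Rt v 1) (Rt w 1) := fun v w => hRtc v w 1 1
  let D : Data F E' k :=
    { al := a
      be := b
      ω := ω
      hω := hω
      w := wsw F k
      w0 := wsw_spec.1
      w0' := wsw_spec.2.1
      w1 := wsw_spec.2.2.1
      w1' := wsw_spec.2.2.2.1
      stab := fun g hg y => (cl_blk hs hc hk y hg).symm _ _ (ha g) (hb y)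
      sc01 := hsc01
      sc10 := hsc10
      zc := cl_stab hs hc hk (by rw [tr_mulVec]; simp [E]) 1 _ _ (hb _) (ha _)
      ll := fun y y' => cl_ll hs hc hk y y' _ _ (hb y) (by rw [map_mul, map_mul, map_inv, ha, hb])
      radd := fun g012 g01 g02 g12 g2 e1 e2 e3 e4 e5 _ => by
        rw [hRte g012 e1, hRte g01 e2, hRte g02 e3, hRte g12 e4, hRte g2 e5, hRt_w, ← hR0]
        exact hradd
      trule := by
        rw [hRt_w, ← hR0, hRtconj _ _ _ (E_ne 1), t01, show (E 1 : Fin (k + 3) → F) 1 • (E 0 : Fin (k + 3) → F) = E 0 by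
          simp [E], add_comm (E 1) (E 0)]
        let B : E' := a (tr p12 1)
        let U : E' := Rt (E 0 + E 2) 1 * (Rt (E 0) 1)⁻¹ * (Rt (E 2) 1)⁻¹
        have hB : ∀ v, v ≠ 0 → B * Rt v 1 * B⁻¹ = Rt (v + v 2 • E 1) 1 := fun v hv => by
          rw [show B = a (tr p12 1) from rfl, hRtconj _ _ _ hv, tr_mulVec, one_mul]
        let r' : (v : Fin (k + 3) → F) → v ≠ 0 → E' := fun v _ => Rt v 1
        let T : Subgroup E' := Subgroup.closure {x | ∃ v, v ≠ 0 ∧ x = Rt v 1}
        have hTc : ∀ x ∈ T, ∀ y ∈ T, x * y = y * x := by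
          intro x hx y hy
          refine (Subgroup.isMulCommutative_closure ?_).is_comm.comm (⟨x, hx⟩ : T) ⟨y, hy⟩ |> congrArg Subtype.val
          rintro _ ⟨v, hv, rfl⟩ _ ⟨w, hw, rfl⟩
          exact (hRtA v w hv hw).eq
        letI : CommGroup ↥T := { (inferInstance : Group ↥T) with
          mul_comm := fun x y => Subtype.ext (hTc _ x.2 _ y.2) }
        let q : (v : Fin (k + 3) → F) → v ≠ 0 → ↥T := fun v hv => ⟨Rt v 1, Subgroup.subset_closure ⟨v, hv, rfl⟩⟩
        have hU : ⁅B, U⁆ = Rt (E 0 + E 1) 1 * (Rt (E 1) 1)⁻¹ * (Rt (E 0) 1)⁻¹ := by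
          have h1 : B * U * B⁻¹ = Rt (E 0 + E 1 + E 2) 1 * (Rt (E 0) 1)⁻¹ * (Rt (E 1 + E 2) 1)⁻¹ := by
            simp only [U, ← conj_mul, ← conj_inv]
            rw [hB _ n02, hB _ (E_ne 0), hB _ (E_ne 2)]
            have a2 : (E 0 + E 2 : Fin (k + 3) → F) 2 = 1 := by simp [E, two_ne_zero'']
            have b2 : (E 0 : Fin (k + 3) → F) 2 = 0 := by simp [E, two_ne_zero'']
            have c2 : (E 2 : Fin (k + 3) → F) 2 = 1 := by simp [E]
            rw [a2, b2, c2, one_smul, zero_smul, add_zero, add_right_comm, add_comm (E 2) (E 1)]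
          have h2 : q _ n012 * (q _ (E_ne 0))⁻¹ * (q _ n12)⁻¹ *
              (q _ n02 * (q _ (E_ne 0))⁻¹ * (q _ (E_ne 2))⁻¹)⁻¹ = q _ n01 * (q _ (E_ne 1))⁻¹ * (q _ (E_ne 0))⁻¹ := by
            have hq : q _ n012 * q _ (E_ne 0) * q _ (E_ne 1) * q _ (E_ne 2) = q _ n01 * q _ n02 * q _ n12 :=
              Subtype.ext hradd
            exact u_alg _ _ _ _ _ _ _ hq
          rw [commutatorElement_def, h1]
          exact congrArg Subtype.val h2
        rw [← hU]
        obtain ⟨M, hM0, hM0', hM1, hM1'⟩ := exists_pair (F := F) (k := k) two_ne_zero''.symm 0 1 zero_ne_one'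
        have hMb : M ∈ Blk F k := ⟨hM0, hM0'⟩
        have hcomB : Commute (a (tr p12 1)) (b T') :=
          (cl_blk hs hc hk T' (tr_mem_blk p12 one_ne_zero' two_ne_zero'' 1)).symm _ _ (ha _) (hb _)
        have him : σ (b T' * U * (b T')⁻¹) = σ (a (tr two_ne_zero'' 1)) := by
          have ht := em_eqs (F := F) (k := k) (fun _ => 1) (fun _ => 1) 1 (fun _ => one_mem _) 11
          replace ht : emL T' * (emS (tr zero_ne_one' 1) * (emS (wsw F k) * emL (X' 1) * (emS (wsw F k))⁻¹) *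
              (emS (tr zero_ne_one' 1))⁻¹ * (emS (wsw F k) * emL (X' 1) * (emS (wsw F k))⁻¹)⁻¹ * (emL (X' 1))⁻¹) *
              (emL (T' : Matrix.SpecialLinearGroup (Fin 2) F))⁻¹ = emS (tr one_ne_zero' 1) := mul_inv_eq_one.1 ht
          rw [XV_eq wsw_spec.1, XV_conj _ (E_ne 1), t01, ← XV_E0,
            show (E 1 : Fin (k + 3) → F) 1 • (E 0 : Fin (k + 3) → F) = E 0 by simp [E], add_comm (E 1) (E 0)] at ht
          have hcm : Commute (emS M) (emL T') := em_stab hMb T'
          have ht2 := congrArg (fun x => emS M * x * (emS M)⁻¹) ht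
          rw [show emS M * (emL T' * (XV (E 0 + E 1) 1 * (XV (E 1) 1)⁻¹ * (XV (E 0) 1)⁻¹) * (emL T')⁻¹) * (emS M)⁻¹ =
            (emS M * emL T') * (XV (E 0 + E 1) 1 * (XV (E 1) 1)⁻¹ * (XV (E 0) 1)⁻¹) * (emS M * emL T')⁻¹ by group,
            hcm.eq, show emL T' * emS M * (XV (E 0 + E 1) 1 * (XV (E 1) 1)⁻¹ * (XV (E 0) 1)⁻¹) * (emL T' * emS M)⁻¹ =
              emL T' * ((emS M * XV (E 0 + E 1) 1 * (emS M)⁻¹) * (emS M * XV (E 1) 1 * (emS M)⁻¹)⁻¹ *
                (emS M * XV (E 0) 1 * (emS M)⁻¹)⁻¹) * (emL T')⁻¹ by group,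
            XV_conj _ n01, XV_conj _ (E_ne 1), XV_conj _ (E_ne 0), mulVec_add, hM0, hM1, ← map_inv emS M, ← map_mul, ← map_mul,
            conj_tr M one_ne_zero' two_ne_zero'' 1 1 1 (by rw [hM1, one_smul]) (by rw [hM0', one_smul]) one_ne_zero,
            inv_one, mul_one, mul_one] at ht2
          simp only [U, map_mul, map_inv, hb, ha, hRtσ]
          rw [show (XV (E 0 + E 2) 1 * (XV (E 0) 1)⁻¹ * (XV (E 2) 1)⁻¹ : Sp F k) =
            XV (E 0 + E 2) 1 * (XV (E 2) 1)⁻¹ * (XV (E 0) 1)⁻¹ by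
              rw [mul_assoc, mul_assoc, ← _root_.mul_inv_rev, ← _root_.mul_inv_rev, (XV_commute (E_ne 2) (E_ne 0) 1 1).eq]]
          exact ht2
        show b T' * ⁅B, U⁆ * (b T')⁻¹ = _
        rw [show b T' * ⁅B, U⁆ * (b T')⁻¹ = ⁅b T' * B * (b T')⁻¹, b T' * U * (b T')⁻¹⁆ by
          simp only [commutatorElement_def]; group, show B = a (tr p12 1) from rfl, ← hcomB.eq, mul_inv_cancel_right,
          ccongr hc (a' := a (tr p12 1)) (b' := a (tr two_ne_zero'' 1)) rfl him, ← map_commutatorElement,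
          tr_chain _ _ one_ne_zero', one_mul] }
  have htop : (a.range ⊔ b.range).map σ = ⊤ := by
    rw [Subgroup.map_sup, MonoidHom.map_range, MonoidHom.map_range,
      show σ.comp a = emS from MonoidHom.ext ha, show σ.comp b = emL from MonoidHom.ext hb, range_sup_eq_top]
  obtain ⟨τ', hτ', -⟩ := section_of_complement (σ := σ) (a.range ⊔ b.range) (by
      rw [eq_bot_iff]
      rintro x ⟨hx, hx'⟩
      exact D.inj ha hb hx hx') htop
  exact ⟨τ', hτ'⟩

end Cfsg.Agent.Lib.PSpMult
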