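import Cfsg.Agent.Lib.PSpMult.Basic
import Cfsg.Agent.Lib.SchurAlt.SL2
import Cfsg.Agent.Lib.Classical.Simple

/-!
Central extensions of `SL(2, q)` in which the lifts of the unitriangular group commute.
-/

set_option autoImplicit false

namespace Cfsg.Agent.Lib.PSpMult

open Matrix Cfsg.Agent.Lib.SchurMult Cfsg.Agent.Lib.SchurMult.SLTwo
open scoped commutatorElement MatrixGroups

universe u v

variable {F : Type u} [Field F] [Fintype F] {E : Type v} [Group E] [Finite E] {σ : E →* SL(2, F)}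

def chi3 (a b c d : ZMod 3) : ZMod 3 := (1 - c ^ 2) * (b * d) + c * (a + d)

/-- a homomorphism on `SL(2, 2)` -/
def chi2 (a b c d : ZMod 2) : ZMod 2 := (1 - c) * (b * d + (c - 1) * d + c + 1) + c * (a + d + 1)

theorem chi3_mul : ∀ a b c d : ZMod 3, a * d - b * c = 1 → ∀ a' b' c' d' : ZMod 3, a' * d' - b' * c' = 1 →
    chi3 (a * a' + b * c') (a * b' + b * d') (c * a' + d * c') (c * b' + d * d') = chi3 a b c d + chi3 a' b' c' d' := by
  decide +kernel

theorem chi2_mul : ∀ a b c d : ZMod 2, a * d - b * c = 1 → ∀ a' b' c' d' : ZMod 2, a' * d' - b' * c' = 1 →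
    chi2 (a * a' + b * c') (a * b' + b * d') (c * a' + d * c') (c * b' + d * d') = chi2 a b c d + chi2 a' b' c' d' := by
  decide +kernel

theorem chi2_one : chi2 1 1 0 1 ≠ 0 := by decide

theorem chi3_one : chi3 1 1 0 1 ≠ 0 := by decide

theorem un_one_notMem {p : ℕ} [Fact p.Prime] (e : F ≃+* ZMod p) (χ : ZMod p → ZMod p → ZMod p → ZMod p → ZMod p)
    (h1 : χ 1 1 0 1 ≠ 0) (hm : ∀ a b c d : ZMod p, a * d - b * c = 1 → ∀ a' b' c' d' : ZMod p, a' * d' - b' * c' = 1 →
      χ (a * a' + b * c') (a * b' + b * d') (c * a' + d * c') (c * b' + d * d') = χ a b c d + χ a' b' c' d') :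
    un (1 : F) ∉ commutator SL(2, F) := by
  let f : SL(2, F) →* Multiplicative (ZMod p) := MonoidHom.mk'
    (fun g => Multiplicative.ofAdd (χ (e (g.1 0 0)) (e (g.1 0 1)) (e (g.1 1 0)) (e (g.1 1 1))))
    fun g g' => by
      have hd : ∀ g : SL(2, F), e (g.1 0 0) * e (g.1 1 1) - e (g.1 0 1) * e (g.1 1 0) = 1 := fun g => by
        rw [← map_mul, ← map_mul, ← map_sub, ← Matrix.det_fin_two, g.2, map_one]
      rw [← ofAdd_add, ← hm _ _ _ _ (hd g) _ _ _ _ (hd g')]
      simp [Matrix.SpecialLinearGroup.coe_mul, Matrix.mul_apply, Fin.sum_univ_two]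
  intro h
  have := Abelianization.commutator_subset_ker f h
  have h2 : Multiplicative.ofAdd (χ (e ((un (1 : F)).1 0 0)) (e ((un (1 : F)).1 0 1)) (e ((un (1 : F)).1 1 0))
      (e ((un (1 : F)).1 1 1))) = 1 := this
  rw [ofAdd_eq_one] at h2
  exact h1 (by simpa [un] using h2)

theorem inf_eq_bot_SLTwo (hs : Function.Surjective σ) (hc : σ.ker ≤ Subgroup.center E)
    (habel : ∀ s t, CL σ (un (F := F) s) (un t)) : σ.ker ⊓ commutator E = ⊥ := by
  classical
  by_contra hne
  have hcard : Nat.card ↥(σ.ker ⊓ commutator E) ≠ 1 := fun h => hne (Subgroup.card_eq_one.1 h)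
  obtain ⟨r, hr, hdvd⟩ := Nat.exists_prime_and_dvd hcard
  haveI := Fact.mk hr
  obtain ⟨z, hz⟩ := exists_prime_orderOf_dvd_card' r hdvd
  have hzo : orderOf (z : E) = r := by rw [Subgroup.orderOf_coe, hz]
  have hzc : (z : E) ∈ Subgroup.center E := hc z.2.1
  obtain ⟨P₁, hP₁⟩ := (IsPGroup.of_card (p := r) (n := 1) (G := Subgroup.zpowers (z : E)) (by
    rw [Nat.card_zpowers, hzo, pow_one])).exists_le_sylow
  have hzP₁ : (z : E) ∈ (P₁ : Subgroup E) := hP₁ (Subgroup.mem_zpowers _)
  -- it suffices to find a Sylow subgroup whose derived group avoids the kernel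
  suffices ∃ P : Sylow r E, ∀ x : (P : Subgroup E), σ x = 1 → x ∈ commutator (P : Subgroup E) → x = 1 by
    obtain ⟨P, hP⟩ := this
    obtain ⟨g, hg⟩ := MulAction.exists_smul_eq E P₁ P
    have hzP : (z : E) ∈ (P : Subgroup E) := by
      rw [← hg, Sylow.coe_subgroup_smul]
      refine ⟨z, hzP₁, ?_⟩
      show g * (z : E) * g⁻¹ = z
      rw [Subgroup.mem_center_iff.1 hzc g, mul_inv_cancel_right]
    have h1 := hP ⟨z, hzP⟩ z.2.1 (mem_commutator_sylow P hzP hzc z.2.2)
    have h2 : (z : E) = 1 := congrArg Subtype.val h1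
    rw [h2, orderOf_one] at hzo
    exact hr.ne_one hzo.symm
  obtain ⟨p, hchar⟩ := CharP.exists F
  obtain ⟨n, hp, hq⟩ := FiniteField.card F p
  haveI := Fact.mk hp
  by_cases hrp : r = p
  swap
  · refine ⟨P₁, fun x hx hx' => ?_⟩
    set Q := P₁.mapSurjective hs
    have e : (P₁ : Subgroup E).map σ = (Q : Subgroup SL(2, F)) := rfl
    let τ : (P₁ : Subgroup E) →* (Q : Subgroup SL(2, F)) :=
      (MulEquiv.subgroupCongr e).toMonoidHom.comp (σ.subgroupMap (P₁ : Subgroup E))
    have hτs : Function.Surjective τ := (MulEquiv.subgroupCongr e).surjective.comp (σ.subgroupMap_surjective _)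
    have hτker : ∀ y, y ∈ τ.ker ↔ σ (y : E) = 1 := fun y => by
      rw [MonoidHom.mem_ker]
      exact Subtype.ext_iff
    have hτc : τ.ker ≤ Subgroup.center _ := fun y hy => Subgroup.mem_center_iff.2 fun g =>
      Subtype.ext (Subgroup.mem_center_iff.1 (hc ((hτker y).1 hy)) g)
    by_cases hr2 : r = 2
    · subst hr2
      have hodd : Odd (Fintype.card F) := by
        rw [hq]
        exact (hp.odd_of_ne_two (Ne.symm hrp)).pow
      obtain ⟨k, -, ⟨e'⟩⟩ := Cfsg.Agent.Lib.Classical.sl_two_sylow_quaternion hodd Q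
      haveI : NeZero (2 ^ k) := ⟨by positivity⟩
      have h := inf_commutator_eq_bot (Cfsg.Agent.S3963.result (2 ^ k)) (e'.toMonoidHom.comp τ)
        (e'.surjective.comp hτs) (fun y hy => hτc (by simpa using hy))
      have : x ∈ (e'.toMonoidHom.comp τ).ker ⊓ commutator ↥(P₁ : Subgroup E) :=
        ⟨by simpa using (hτker x).2 hx, hx'⟩
      rwa [h, Subgroup.mem_bot] at this
    · haveI := isCyclic_odd (p := p) hr2 hrp (Q : Subgroup SL(2, F)) Q.2
      have : commutator ↥(P₁ : Subgroup E) = ⊥ := by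
        rw [commutator_def, Subgroup.commutator_eq_bot_iff_le_centralizer]
        intro a _
        rw [Subgroup.mem_centralizer_iff]
        exact fun b _ => commutative_of_cyclic_center_quotient τ hτc b a
      rwa [this, Subgroup.mem_bot] at hx'
  subst hrp
  -- the Sylow `r`-subgroup `U`
  have hcardU : Nat.card (unHom (F := F)).range = r ^ (n : ℕ) := by
    rw [← Nat.card_congr (MonoidHom.ofInjective unHom_injective).toEquiv,
      Nat.card_congr (Multiplicative.toAdd (α := F)), Nat.card_eq_fintype_card, hq]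
  obtain ⟨P₀⟩ := (inferInstance : Nonempty (Sylow r E))
  set Q₀ := P₀.mapSurjective hs
  have hU : (unHom (F := F)).range.index.Coprime r := by
    refine ((hr.coprime_iff_not_dvd).2 fun hd => ?_).symm
    have h1 := (unHom (F := F)).range.card_mul_index
    rw [hcardU, Cfsg.Agent.Lib.Classical.card_SL_two, ← hq] at h1
    have hqpos : 0 < Fintype.card F := Fintype.card_pos
    rw [Nat.eq_of_mul_eq_mul_left hqpos h1] at hd
    have h2 : r ∣ Fintype.card F ^ 2 := by
      rw [hq, ← pow_mul]; exact dvd_pow_self r (by have := n.pos; omega)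
    have h3 : 1 ≤ Fintype.card F ^ 2 := Nat.one_le_pow _ _ hqpos
    have := Nat.dvd_sub h2 hd
    rw [Nat.sub_sub_self h3] at this
    exact hr.one_lt.ne' (Nat.dvd_one.1 this)
  let U : Sylow r SL(2, F) := (IsPGroup.of_card hcardU).toSylow
    fun hd => hr.one_lt.ne' (Nat.eq_one_of_dvd_coprimes hU hd dvd_rfl)
  obtain ⟨g, hg⟩ := MulAction.exists_smul_eq SL(2, F) Q₀ U
  obtain ⟨g', rfl⟩ := hs g
  set P := g' • P₀ with hP
  have hmap : (P : Subgroup E).map σ = (unHom (F := F)).range := by
    have hU' : (U : Subgroup SL(2, F)) = (unHom (F := F)).range := rfl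
    rw [← hU', ← hg, hP, Sylow.coe_subgroup_smul, Sylow.coe_subgroup_smul,
      Subgroup.pointwise_smul_def, Subgroup.pointwise_smul_def]
    change _ = Subgroup.map _ ((P₀ : Subgroup E).map σ)
    ext y
    constructor
    · rintro ⟨_, ⟨x, hx, rfl⟩, rfl⟩
      refine ⟨σ x, Subgroup.mem_map_of_mem σ hx, ?_⟩
      simp [MulAut.smul_def]
    · rintro ⟨_, ⟨x, hx, rfl⟩, rfl⟩
      refine ⟨g' * x * g'⁻¹, ⟨x, hx, by simp [MulAut.smul_def]⟩, ?_⟩
      simp [MulAut.smul_def]
  refine ⟨P, fun x _ hx' => ?_⟩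
  have habP : commutator (P : Subgroup E) = ⊥ := by
    rw [commutator_def, Subgroup.commutator_eq_bot_iff_le_centralizer]
    intro a _
    rw [Subgroup.mem_centralizer_iff]
    intro b _
    obtain ⟨s, hs'⟩ : σ (b : E) ∈ (unHom (F := F)).range := hmap ▸ Subgroup.mem_map_of_mem σ b.2
    obtain ⟨t, ht⟩ : σ (a : E) ∈ (unHom (F := F)).range := hmap ▸ Subgroup.mem_map_of_mem σ a.2
    exact Subtype.ext (habel (Multiplicative.toAdd s) (Multiplicative.toAdd t) b a hs'.symm ht.symm).eq
  rwa [habP, Subgroup.mem_bot] at hx'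

/-- For `q ≥ 4` the derived subgroup is a section; in general one may prescribe a lift of order `p`. -/
theorem exists_section_SLTwo (hs : Function.Surjective σ) (hc : σ.ker ≤ Subgroup.center E)
    (habel : ∀ s t, CL σ (un (F := F) s) (un t)) (e : E) (he : σ e = un 1)
    (hep : Fintype.card F ≤ 3 → e ^ Fintype.card F = 1) :
    ∃ τ : SL(2, F) →* E, σ.comp τ = MonoidHom.id _ ∧ (Fintype.card F ≤ 3 → τ (un 1) = e) := by
  classical
  have hinf := inf_eq_bot_SLTwo hs hc habel
  have hmap : (commutator E).map σ = commutator SL(2, F) := by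
    rw [map_commutator_eq _ σ, MonoidHom.range_eq_top.2 hs, ← commutator_def]
  by_cases h4 : 4 ≤ Fintype.card F
  · obtain ⟨τ, hτ, -⟩ := section_of_complement (σ := σ) (commutator E) (by rwa [inf_comm])
      (by rw [hmap]; exact Cfsg.Agent.Lib.SchurAlt.sl_perfect h4)
    exact ⟨τ, hτ, fun h => by omega⟩
  have h3 : Fintype.card F ≤ 3 := by omega
  have hprime : (Fintype.card F).Prime := by
    have := Fintype.one_lt_card (α := F)
    rcases (by omega : Fintype.card F = 2 ∨ Fintype.card F = 3) with h | h <;> rw [h] <;> norm_num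
  haveI := Fact.mk hprime
  haveI : CharP F (Fintype.card F) := charP_of_card_eq_prime rfl
  set p := Fintype.card F
  -- the normal closure of `un 1` is everything, so it is not in the derived subgroup
  have hgen : ∀ N : Subgroup SL(2, F), N.Normal → un 1 ∈ N → N = ⊤ := by
    intro N hN h1
    have hun : ∀ c : F, un c ∈ N := fun c => by
      obtain ⟨m, rfl⟩ : ∃ m : ℕ, (m : F) = c := by
        obtain ⟨y, rfl⟩ := ((Fintype.bijective_iff_injective_and_card (ZMod.castHom (dvd_refl p) F)).2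
          ⟨RingHom.injective _, by rw [ZMod.card]⟩).2 c
        exact ⟨y.val, by rw [ZMod.castHom_apply, ZMod.natCast_val]⟩
      induction m with
      | zero =>
        rw [Nat.cast_zero, show un (0 : F) = 1 by ext i j; fin_cases i <;> fin_cases j <;> simp [un]]
        exact one_mem N
      | succ m ih => rw [Nat.cast_succ, ← un_mul]; exact mul_mem ih h1
    rw [eq_top_iff]
    intro g _
    refine Cfsg.Agent.Lib.Classical.SL_transvection_induction (· ∈ N) (one_mem N) (fun i j hij c => ?_)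
      (fun _ _ a b => mul_mem a b) g
    let w : SL(2, F) := ⟨!![0, 1; -1, 0], by simp [det_fin_two]⟩
    fin_cases i <;> fin_cases j <;> first | exact absurd rfl hij | skip
    · convert hun c using 1
      refine Subtype.ext ?_
      change Matrix.transvection 0 1 c = !![1, c; 0, 1]
      ext i j; fin_cases i <;> fin_cases j <;> simp [Matrix.transvection]
    · convert hN.conj_mem _ (hun (-c)) w using 1
      refine Subtype.ext ?_
      rw [Matrix.SpecialLinearGroup.coe_mul, Matrix.SpecialLinearGroup.coe_mul, Matrix.SpecialLinearGroup.coe_inv]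
      change Matrix.transvection 1 0 c = !![0, 1; -1, 0] * !![1, -c; 0, 1] * adjugate !![0, 1; -1, 0]
      ext i j; fin_cases i <;> fin_cases j <;>
        simp [Matrix.transvection, Matrix.mul_apply, Fin.sum_univ_two, adjugate_fin_two]
  have hnot : un (1 : F) ∉ commutator SL(2, F) := by
    let e := (RingEquiv.ofBijective (ZMod.castHom (dvd_refl p) F) ((Fintype.bijective_iff_injective_and_card _).2
      ⟨RingHom.injective _, by rw [ZMod.card]⟩)).symm
    rcases (by have := Fintype.one_lt_card (α := F); omega : p = 2 ∨ p = 3) with hp2 | hp2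
    · haveI : Fact (Nat.Prime 2) := ⟨by norm_num⟩
      exact un_one_notMem (e.trans (ZMod.ringEquivCongr hp2)) chi2 chi2_one chi2_mul
    · haveI : Fact (Nat.Prime 3) := ⟨by norm_num⟩
      exact un_one_notMem (e.trans (ZMod.ringEquivCongr hp2)) chi3 chi3_one chi3_mul
  have hH : (commutator E ⊔ Subgroup.zpowers e) ⊓ σ.ker = ⊥ := by
    rw [eq_bot_iff]
    rintro x ⟨hx, hxk⟩
    obtain ⟨d, hd, w, hw, rfl⟩ := Subgroup.mem_sup_of_normal_left.1 hx
    obtain ⟨i, rfl⟩ := Subgroup.mem_zpowers_iff.1 hw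
    have hpi : (p : ℤ) ∣ i := by
      by_contra hn
      obtain ⟨a, b, hab⟩ := ((Nat.prime_iff_prime_int.1 hprime).coprime_iff_not_dvd.2 hn).symm
      refine hnot ?_
      have h1 : σ d * σ e ^ i = 1 := by rw [← map_zpow, ← map_mul]; exact hxk
      have h2 : σ e ^ i ∈ commutator SL(2, F) := by
        rw [eq_inv_of_mul_eq_one_right h1, ← hmap]
        exact inv_mem (Subgroup.mem_map_of_mem σ hd)
      have h3' : σ e ^ (p : ℤ) = 1 := by rw [zpow_natCast, ← map_pow, hep h3, map_one]
      rw [← he, ← zpow_one (σ e), ← hab, _root_.zpow_add, mul_comm a i, mul_comm b, _root_.zpow_mul, _root_.zpow_mul, h3', _root_.one_zpow,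
        mul_one]
      exact zpow_mem h2 _
    obtain ⟨c, rfl⟩ := hpi
    rw [_root_.zpow_mul, zpow_natCast, hep h3, _root_.one_zpow, mul_one] at hxk ⊢
    exact hinf ▸ (⟨hxk, hd⟩ : d ∈ σ.ker ⊓ commutator E)
  obtain ⟨τ, hτ, hτe⟩ := section_of_complement (σ := σ) _ hH (hgen _ (by
      rw [Subgroup.map_sup, hmap]
      exact Subgroup.Normal.of_commutator_le (G := SL(2, F)) le_sup_left) (by
      rw [← he]; exact Subgroup.mem_map_of_mem σ (Subgroup.mem_sup_right (Subgroup.mem_zpowers e))))
  refine ⟨τ, hτ, fun _ => ?_⟩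
  rw [← he]
  exact hτe e (Subgroup.mem_sup_right (Subgroup.mem_zpowers e))

end Cfsg.Agent.Lib.PSpMult
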