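import Cfsg.Agent.Lib.SteinbergPres.SLnLift

/-!
The relations of Steinberg in a central extension, given that lifts commute and tori scale.
-/

set_option autoImplicit false

namespace Cfsg.Agent.Lib.SteinbergPres

namespace Steinberg

variable {ι : Type*} {K : Type*} [Field K] {G : Type*} [Group G] (X : Steinberg ι K G)
  {E : Type*} [Group E] {π : E →* G} (hπ : Function.Surjective π) (hc : π.ker ≤ Subgroup.center E)

include hπ hc in
/-- a central extension carries the relations -/
theorem exists_lift_of [Fintype K] [Fintype ι]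
    (hcom : ∀ {i j k l : ι}, i ≠ j → k ≠ l → i ≠ l → j ≠ k → ∀ {p q : E} {t u : K},
      π p = X.x i j t → π q = X.x k l u → Commute p q)
    [DecidableEq ι] (D : ι → K → G)
    (hD : Fintype.card ι = 3 → ∀ (j : ι) (a : K), a ≠ 0 → ∀ k l, k ≠ l → ∀ t,
      D j a * X.x k l t * (D j a)⁻¹ = X.x k l ((if k = j then a else 1) * t * (if l = j then a else 1)⁻¹))
    (hDc : Fintype.card ι = 3 → ∀ i j a b, Commute (D i a) (D j b))
    (hne : Fintype.card ι = 3 → ∃ a : K, a ≠ 0 ∧ a ≠ 1) :
    ∃ Y : Steinberg ι K E, ∀ i j, i ≠ j → ∀ t, π (Y.x i j t) = X.x i j t := by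
  classical
  let L := Function.surjInv hπ
  have hL : ∀ g, π (L g) = g := Function.surjInv_eq hπ
  let P : ι → ι → ι → K → K → E := fun i j l t u =>
    L (X.x i j t) * L (X.x j l u) * (L (X.x i j t))⁻¹ * (L (X.x j l u))⁻¹
  have hval : ∀ i j l t u a b, π a = X.x i j t → π b = X.x j l u → a * b * a⁻¹ * b⁻¹ = P i j l t u :=
    fun i j l t u a b ha hb => ccongr hc (by rw [ha, hL]) (by rw [hb, hL])
  have hπP : ∀ i j l, i ≠ j → j ≠ l → i ≠ l → ∀ t u, π (P i j l t u) = X.x i l (t * u) := fun i j l a b c t u => by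
    simp only [P, map_mul, map_inv, hL]
    exact X.chain a b c t u
  have hP1 : ∀ i j l, i ≠ j → j ≠ l → i ≠ l → ∀ t t' u, P i j l (t + t') u = P i j l t u * P i j l t' u := by
    intro i j l a b c t t' u
    rw [← hval i j l (t + t') u (L (X.x i j t) * L (X.x i j t')) (L (X.x j l u))
      (by rw [map_mul, hL, hL, X.add a]) (hL _)]
    have h1 : Commute (L (X.x i j t)) (P i j l t' u) := hcom a c c a.symm (hL _) (hπP i j l a b c t' u)
    have h2 : Commute (P i j l t' u) (P i j l t u) :=
      hcom c c c (Ne.symm c) (hπP i j l a b c t' u) (hπP i j l a b c t u)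
    calc L (X.x i j t) * L (X.x i j t') * L (X.x j l u) * (L (X.x i j t) * L (X.x i j t'))⁻¹ * (L (X.x j l u))⁻¹
        = L (X.x i j t) * P i j l t' u * L (X.x j l u) * (L (X.x i j t))⁻¹ * (L (X.x j l u))⁻¹ := by
          simp only [P]; group
      _ = P i j l t' u * P i j l t u := by rw [h1.eq]; simp only [P]; group
      _ = _ := h2.eq
  have hP2 : ∀ i j l, i ≠ j → j ≠ l → i ≠ l → ∀ t u u', P i j l t (u + u') = P i j l t u * P i j l t u' := by
    intro i j l a b c t u u'
    rw [← hval i j l t (u + u') (L (X.x i j t)) (L (X.x j l u) * L (X.x j l u')) (hL _)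
      (by rw [map_mul, hL, hL, X.add b])]
    have h1 : Commute (P i j l t u') (L (X.x j l u)) := hcom c b c (Ne.symm b) (hπP i j l a b c t u') (hL _)
    calc L (X.x i j t) * (L (X.x j l u) * L (X.x j l u')) * (L (X.x i j t))⁻¹ * (L (X.x j l u) * L (X.x j l u'))⁻¹
        = P i j l t u * (L (X.x j l u) * P i j l t u' * (L (X.x j l u))⁻¹) := by simp only [P]; group
      _ = _ := by rw [← h1.eq]; group
  have hassoc : ∀ i j k l, i ≠ j → i ≠ k → i ≠ l → j ≠ k → j ≠ l → k ≠ l → ∀ t v w,
      P i j l t (v * w) = P i k l (t * v) w := by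
    intro i j k l ij ik il jk jl kl t v w
    set a := L (X.x i j t) with ha
    set b := L (X.x j k v) with hb
    set c := L (X.x k l w) with hc'
    have hac : Commute a c := hcom ij kl il jk (hL _) (hL _)
    set d := a * b * a⁻¹ * b⁻¹ with hd
    set e := b * c * b⁻¹ * c⁻¹ with he
    have hπd : π d = X.x i k (t * v) := hπP i j k ij jk ik t v
    have hπe : π e = X.x j l (v * w) := hπP j k l jk kl jl v w
    rw [← hval i j l t (v * w) a e (hL _) hπe, ← hval i k l (t * v) w d c hπd (hL _)]
    have hde : Commute d e := hcom ik jl il (Ne.symm jk) hπd hπe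
    have hπdc : π (d * c * d⁻¹ * c⁻¹) = X.x i l (t * v * w) := by
      rw [map_mul, map_mul, map_mul, map_inv, map_inv, hπd, show π c = X.x k l w from hL _, X.chain ik kl il]
    have he' : Commute (d * c * d⁻¹ * c⁻¹) e := hcom il jl il (Ne.symm jl) hπdc hπe
    calc a * e * a⁻¹ * e⁻¹
        = (a * b * a⁻¹) * (a * c * a⁻¹) * (a * b * a⁻¹)⁻¹ * (a * c * a⁻¹)⁻¹ * e⁻¹ := by
          simp only [he]; group
      _ = d * e * d⁻¹ * (d * c * d⁻¹ * c⁻¹) * e⁻¹ := by
          rw [show a * c * a⁻¹ = c by rw [hac.eq]; group]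
          simp only [hd, he]; group
      _ = (d * c * d⁻¹ * c⁻¹) := by rw [hde.eq, mul_inv_cancel_right, ← he'.eq, mul_inv_cancel_right]
  choose o ho1 ho2 using fun i l => X.three i l
  have hkey : ∀ i j l, i ≠ j → j ≠ l → i ≠ l → ∀ t u, P i j l t u = P i (o i l) l 1 (t * u) := by
    intro i j l a b c t u
    by_cases hn : Fintype.card ι = 3
    · have hjo : o i l = j := by
        by_contra hne
        have := Finset.card_le_univ ({i, j, l, o i l} : Finset ι)
        rw [Finset.card_insert_of_notMem (by simp [a, c, (ho1 i l).symm]),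
          Finset.card_insert_of_notMem (by simp [b, Ne.symm hne]), Finset.card_pair (ho2 i l).symm, hn] at this
        omega
      rw [hjo]
      rcases eq_or_ne t 0 with rfl | ht
      · have e1 := hP1 i j l a b c 0 0 u
        rw [add_zero, left_eq_mul] at e1
        have e2 := hP2 i j l a b c 1 0 0
        rw [add_zero, left_eq_mul] at e2
        rw [e1, zero_mul, e2]
      have key : ∀ s : K, s ≠ 0 → ∀ t u, P i j l t u = P i j l (t / s) (s * u) := by
        intro s hs0 t u
        obtain ⟨e, he⟩ := hπ (D j s)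
        have hg := hD hn j s hs0
        obtain ⟨r, hr0, hr1⟩ := hne hn
        obtain ⟨e', he'⟩ := hπ (D i r)
        have hfix : e * P i j l t u * e⁻¹ = P i j l t u := by
          set w := t * u / (r - 1)
          have hgil : D j s * X.x i l w * (D j s)⁻¹ = X.x i l w := by
            rw [hg i l c, if_neg a, if_neg b.symm]; congr 1; simp
          obtain ⟨z, hz, hP⟩ : ∃ z, π z = 1 ∧ P i j l t u = e' * L (X.x i l w) * e'⁻¹ * (L (X.x i l w))⁻¹ * z :=
            ⟨(e' * L (X.x i l w) * e'⁻¹ * (L (X.x i l w))⁻¹)⁻¹ * P i j l t u, by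
              simp only [map_mul, map_inv, hπP i j l a b c, hL, he', hD hn i r hr0 i l c, if_pos, if_neg c.symm]
              rw [X.x_inv c, X.add c, X.x_inv c, X.add c, ← X.x_zero c]
              congr 1
              simp only [w, inv_one, mul_one]
              field_simp [sub_ne_zero.2 hr1]
              ring, by group⟩
          have h1 : e * e' * e⁻¹ * (e * L (X.x i l w) * e⁻¹) * (e * e' * e⁻¹)⁻¹ * (e * L (X.x i l w) * e⁻¹)⁻¹ =
              e' * L (X.x i l w) * e'⁻¹ * (L (X.x i l w))⁻¹ := by
            refine ccongr hc ?_ ?_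
            · rw [map_mul, map_mul, map_inv, he, he', (hDc hn j i s r).eq, mul_inv_cancel_right]
            · rw [map_mul, map_mul, map_inv, he, hL, hgil]
          rw [hP]
          calc e * (e' * L (X.x i l w) * e'⁻¹ * (L (X.x i l w))⁻¹ * z) * e⁻¹
              = (e * e' * e⁻¹ * (e * L (X.x i l w) * e⁻¹) * (e * e' * e⁻¹)⁻¹ * (e * L (X.x i l w) * e⁻¹)⁻¹) *
                  (e * z * e⁻¹) := by group
            _ = _ := by rw [h1, ← cker hc hz e, mul_inv_cancel_right]
        conv_lhs => rw [← hfix]
        rw [← hval i j l (t / s) (s * u) (e * L (X.x i j t) * e⁻¹) (e * L (X.x j l u) * e⁻¹)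
          (by
            rw [map_mul, map_mul, map_inv, he, hL, hg i j a, if_neg a, if_pos rfl]
            congr 1; rw [one_mul, div_eq_mul_inv])
          (by
            rw [map_mul, map_mul, map_inv, he, hL, hg j l b, if_pos rfl, if_neg b.symm]
            congr 1; simp)]
        simp only [P]; group
      rw [key t ht t u, div_self ht]
    · have hcard : 4 ≤ Fintype.card ι := by
        have := Finset.card_le_univ ({i, j, l} : Finset ι)
        rw [Finset.card_insert_of_notMem (by simp [a, c]), Finset.card_pair b] at this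
        omega
      have hother : ∀ i j l : ι, ∃ k, k ≠ i ∧ k ≠ j ∧ k ≠ l := fun i j l => by
        by_contra hno
        push Not at hno
        have hs : (Finset.univ : Finset ι) ⊆ {i, j, l} := fun k _ => by
          simp only [Finset.mem_insert, Finset.mem_singleton]
          by_contra h
          push Not at h
          exact h.2.2 (hno k h.1 h.2.1)
        have := (Finset.card_le_card hs).trans Finset.card_le_three
        rw [Finset.card_univ] at this
        omega
      by_cases hjo : j = o i l
      · subst hjo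
        obtain ⟨k, k1, k2, k3⟩ := hother i (o i l) l
        have h1 := hassoc i (o i l) k l a k1.symm c k2.symm b k3 t u 1
        have h2 := hassoc i (o i l) k l a k1.symm c k2.symm b k3 1 (t * u) 1
        rw [mul_one] at h1 h2
        rw [one_mul] at h2
        rw [h1, h2]
      · have h := hassoc i (o i l) j l (ho1 i l).symm a c (Ne.symm hjo) (ho2 i l) b 1 t u
        rw [one_mul] at h
        exact h.symm
  refine ⟨⟨fun i l w => if i = l then 1 else P i (o i l) l 1 w, ?_, ?_, ?_, X.three⟩, ?_⟩
  · intro i l hil t u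
    simp only [if_neg hil]
    rw [hP2 i (o i l) l (ho1 i l).symm (ho2 i l) hil]
  · intro i j k l hij hkl hil hjk t u
    simp only [if_neg hij, if_neg hkl]
    refine hcom hij hkl hil hjk (t := t) (u := u) ?_ ?_
    · rw [hπP i (o i j) j (ho1 i j).symm (ho2 i j) hij, one_mul]
    · rw [hπP k (o k l) l (ho1 k l).symm (ho2 k l) hkl, one_mul]
  · intro i j l hij hjl hil t u
    simp only [if_neg hij, if_neg hjl, if_neg hil]
    rw [← hkey i j l hij hjl hil t u]
    refine hval i j l t u _ _ ?_ ?_
    · rw [hπP i (o i j) j (ho1 i j).symm (ho2 i j) hij, one_mul]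
    · rw [hπP j (o j l) l (ho1 j l).symm (ho2 j l) hjl, one_mul]
  · intro i j hij t
    simp only [if_neg hij]
    rw [hπP i (o i j) j (ho1 i j).symm (ho2 i j) hij, one_mul]

end Steinberg

end Cfsg.Agent.Lib.SteinbergPres
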